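import Mathlib
import Cfsg.Agent.Lib.Helper14.WClosure6

set_option autoImplicit false

/-!
An element `x` of a normal abelian subgroup `V`, centralized by a Sylow `p`-subgroup `T` and by
every proper subgroup containing `T`, is central as soon as a conjugation-closed family of
subgroups of `T`, not all inside `O_p`, has no member acting on `V` with an orbit pattern of
"index `p`" type.  The proof multiplies the conjugates of `x`.
-/

namespace Cfsg.Agent.Lib.Helper5.OrbFam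

open Cfsg

universe u

theorem prod_fixed {Z : Type u} [CommGroup Z] [DecidableEq Z] (σ : MulAut Z) (s : Finset Z)
    (h : ∀ w ∈ s, σ w ∈ s) : σ (∏ w ∈ s, w) = ∏ w ∈ s, w := by
  have himg : s.image (fun w => σ w) = s := by
    apply Finset.eq_of_subset_of_card_le
    · intro w hw
      obtain ⟨v, hv, rfl⟩ := Finset.mem_image.mp hw
      exact h v hv
    · rw [Finset.card_image_of_injective _ σ.injective]
  have h1 : ∏ w ∈ s.image (fun w => σ w), w = ∏ w ∈ s, σ w :=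
    Finset.prod_image (fun a _ b _ hab => σ.injective hab)
  rw [map_prod, ← h1, himg]

theorem coset_decomp {P : Type u} [Group P] {p : ℕ} [hp : Fact p.Prime] (P₁ : Subgroup P)
    [P₁.Normal] (hidx : P₁.index = p) (a : P) (ha : a ∉ P₁) :
    (∀ i j : ℕ, i < p → j < p → (a ^ i)⁻¹ * a ^ j ∈ P₁ → i = j) ∧
    ∀ g : P, ∃ i : ℕ, i < p ∧ (a ^ i)⁻¹ * g ∈ P₁ := by
  have hcard : Nat.card (P ⧸ P₁) = p := hidx
  have hne : (QuotientGroup.mk a : P ⧸ P₁) ≠ 1 := by
    intro h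
    exact ha ((QuotientGroup.eq_one_iff a).mp h)
  have hord : orderOf (QuotientGroup.mk a : P ⧸ P₁) = p := by
    apply orderOf_eq_prime
    · rw [← hcard]
      exact pow_card_eq_one'
    · exact hne
  constructor
  · intro i j hi hj hij
    have h1 : (QuotientGroup.mk a : P ⧸ P₁) ^ i = (QuotientGroup.mk a : P ⧸ P₁) ^ j := by
      rw [← QuotientGroup.mk_pow, ← QuotientGroup.mk_pow]
      exact QuotientGroup.eq.mpr hij
    have h2 := pow_eq_pow_iff_modEq.mp h1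
    rw [hord] at h2
    exact Nat.ModEq.eq_of_lt_of_lt h2 hi hj
  · intro g
    have hmem : (QuotientGroup.mk g : P ⧸ P₁) ∈ Submonoid.powers (QuotientGroup.mk a : P ⧸ P₁) :=
      mem_powers_of_prime_card hcard hne
    obtain ⟨k, hk⟩ := hmem
    refine ⟨k % p, Nat.mod_lt _ hp.out.pos, ?_⟩
    have h3 : (QuotientGroup.mk a : P ⧸ P₁) ^ (k % p) = QuotientGroup.mk g := by
      have h4 := pow_mod_orderOf (QuotientGroup.mk a : P ⧸ P₁) k
      rw [hord] at h4
      rw [h4]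
      exact hk
    rw [← QuotientGroup.mk_pow] at h3
    exact QuotientGroup.eq.mp h3

theorem orbit_prod {P Z : Type u} [Group P] [Finite P] [CommGroup Z] {p : ℕ}
    [hp : Fact p.Prime] (hP : IsPGroup p P) (φ : P →* MulAut Z)
    (hH : ∀ P₁ : Subgroup P, P₁.Normal → P₁.index = p → ∃ A : Subgroup P, ¬ A ≤ P₁ ∧
      ∀ w : Z, ∀ a ∈ A, (∀ b ∈ A, ∃ i : ℕ, i < p ∧ φ ((a ^ i)⁻¹ * b) w = w) → φ a w = w)
    (y ζ : Z) (hy : ∃ g : P, φ g y ≠ y) (hζ : ∀ g : P, (φ g y) ^ p = ζ)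
    (O : Finset Z) (hO : ∀ w, w ∈ O ↔ ∃ g : P, w = φ g y) :
    ∃ m : ℕ, O.card = p * m ∧ ∏ w ∈ O, w = ζ ^ m := by
  classical
  have hmul : ∀ (g h : P) (w : Z), φ (g * h) w = φ g (φ h w) := fun g h w => by
    rw [map_mul]
    rfl
  have hone : ∀ w : Z, φ 1 w = w := fun w => by
    rw [map_one]
    rfl
  obtain ⟨St, hSt⟩ : ∃ St : Subgroup P, ∀ g, g ∈ St ↔ φ g y = y :=
    ⟨{ carrier := {g | φ g y = y}
       one_mem' := hone y
       mul_mem' := fun {a b} ha hb => by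
         have ha' : φ a y = y := ha
         have hb' : φ b y = y := hb
         show φ (a * b) y = y
         rw [hmul, hb', ha']
       inv_mem' := fun {a} ha => by
         have ha' : φ a y = y := ha
         show φ a⁻¹ y = y
         calc φ a⁻¹ y = φ a⁻¹ (φ a y) := by rw [ha']
           _ = φ (a⁻¹ * a) y := (hmul _ _ _).symm
           _ = y := by rw [inv_mul_cancel, hone] }, fun g => Iff.rfl⟩
  have hStne : St ≠ ⊤ := by
    intro h
    obtain ⟨g, hg⟩ := hy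
    exact hg ((hSt g).mp (h ▸ Subgroup.mem_top g))
  obtain ⟨P₁, hP₁n, hP₁idx, hStP₁⟩ :
      ∃ P₁ : Subgroup P, P₁.Normal ∧ P₁.index = p ∧ St ≤ P₁ := by
    obtain ⟨n, hn⟩ := IsPGroup.iff_card.mp hP
    obtain ⟨k, hk⟩ := IsPGroup.iff_card.mp (hP.to_subgroup St)
    have hkn : k < n := by
      by_contra hcon
      push Not at hcon
      apply hStne
      apply Subgroup.eq_top_of_le_card
      rw [hn, hk]
      exact Nat.pow_le_pow_right hp.out.pos hcon
    obtain ⟨j, hj⟩ : ∃ j : ℕ, n = j + 1 := ⟨n - 1, by omega⟩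
    have hdvd : p ^ j ∣ Nat.card P := by
      rw [hn, hj]
      exact pow_dvd_pow p (Nat.le_succ j)
    obtain ⟨K, hK, hStK⟩ := Sylow.exists_subgroup_card_pow_prime_le p hdvd St hk (by omega)
    have hidx : K.index = p := by
      have h1 := Subgroup.card_mul_index K
      rw [hK, hn, hj, pow_succ] at h1
      exact Nat.eq_of_mul_eq_mul_left (pow_pos hp.out.pos j) h1
    refine ⟨K, ?_, hidx, hStK⟩
    apply Subgroup.normal_of_index_eq_minFac_card
    rw [hidx, hn, Nat.pow_minFac (by omega), hp.out.minFac_eq]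
  obtain ⟨A, hAP₁, hA⟩ := hH P₁ hP₁n hP₁idx
  obtain ⟨a, haA, haP₁⟩ : ∃ a ∈ A, a ∉ P₁ := by
    by_contra h
    push Not at h
    exact hAP₁ (fun a ha => h a ha)
  have := hP₁n
  obtain ⟨hinj, hcos⟩ := coset_decomp P₁ hP₁idx a haP₁
  obtain ⟨O₁, hO₁⟩ : ∃ O₁ : Finset Z, ∀ w, w ∈ O₁ ↔ ∃ g ∈ P₁, w = φ g y := by
    refine ⟨O.filter (fun w => ∃ g ∈ P₁, w = φ g y), fun w => ?_⟩
    rw [Finset.mem_filter, hO]
    constructor
    · exact fun h => h.2
    · rintro ⟨g, hg, rfl⟩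
      exact ⟨⟨g, rfl⟩, g, hg, rfl⟩
  have hW₁fix : ∀ g ∈ P₁, φ g (∏ w ∈ O₁, w) = ∏ w ∈ O₁, w := by
    intro g hg
    apply prod_fixed
    intro w hw
    obtain ⟨h, hh, rfl⟩ := (hO₁ w).mp hw
    exact (hO₁ _).mpr ⟨g * h, mul_mem hg hh, (hmul g h y).symm⟩
  have haW : φ a (∏ w ∈ O₁, w) = ∏ w ∈ O₁, w := by
    apply hA _ a haA
    intro b _
    obtain ⟨i, hi, hib⟩ := hcos b
    exact ⟨i, hi, hW₁fix _ hib⟩
  have hapow : ∀ i : ℕ, φ (a ^ i) (∏ w ∈ O₁, w) = ∏ w ∈ O₁, w := by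
    intro i
    induction i with
    | zero => rw [pow_zero, hone]
    | succ i ih => rw [pow_succ, hmul, haW, ih]
  have himg : O = (Finset.range p ×ˢ O₁).image (fun q : ℕ × Z => φ (a ^ q.1) q.2) := by
    ext w
    rw [hO, Finset.mem_image]
    constructor
    · rintro ⟨g, rfl⟩
      obtain ⟨i, hi, hig⟩ := hcos g
      refine ⟨(i, φ ((a ^ i)⁻¹ * g) y), ?_, ?_⟩
      · rw [Finset.mem_product]
        exact ⟨Finset.mem_range.mpr hi, (hO₁ _).mpr ⟨_, hig, rfl⟩⟩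
      · show φ (a ^ i) (φ ((a ^ i)⁻¹ * g) y) = φ g y
        rw [← hmul, mul_inv_cancel_left]
    · rintro ⟨⟨i, w'⟩, hq, rfl⟩
      rw [Finset.mem_product] at hq
      obtain ⟨h, hh, hw'⟩ := (hO₁ w').mp hq.2
      refine ⟨a ^ i * h, ?_⟩
      show φ (a ^ i) w' = φ (a ^ i * h) y
      rw [hmul, hw']
  have hinjOn : Set.InjOn (fun q : ℕ × Z => φ (a ^ q.1) q.2)
      ((Finset.range p ×ˢ O₁ : Finset (ℕ × Z)) : Set (ℕ × Z)) := by
    rintro ⟨i, w⟩ hq ⟨j, w'⟩ hq' heq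
    rw [Finset.mem_coe, Finset.mem_product] at hq hq'
    obtain ⟨h, hh, hw⟩ := (hO₁ w).mp hq.2
    obtain ⟨h', hh', hw'⟩ := (hO₁ w').mp hq'.2
    have hi := Finset.mem_range.mp hq.1
    have hj := Finset.mem_range.mp hq'.1
    have heq0 : φ (a ^ i) w = φ (a ^ j) w' := heq
    have heq' : φ (a ^ i * h) y = φ (a ^ j * h') y := by
      rw [hmul, hmul, ← hw, ← hw']
      exact heq0
    have hst : (a ^ j * h')⁻¹ * (a ^ i * h) ∈ St := by
      rw [hSt, hmul, heq', ← hmul, inv_mul_cancel, hone]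
    have hPm : (a ^ j * h')⁻¹ * (a ^ i * h) ∈ P₁ := hStP₁ hst
    have hij : (a ^ j)⁻¹ * a ^ i ∈ P₁ := by
      have e : (a ^ j)⁻¹ * a ^ i = h' * ((a ^ j * h')⁻¹ * (a ^ i * h)) * h⁻¹ := by group
      rw [e]
      exact mul_mem (mul_mem hh' hPm) (inv_mem hh)
    have hji : j = i := hinj j i hj hi hij
    have hww : w = w' := by
      apply (φ (a ^ i)).injective
      rw [heq0, hji]
    rw [hji, hww]
  have h1 : ∀ i ∈ Finset.range p, ∏ w ∈ O₁, φ (a ^ i) w = ∏ w ∈ O₁, w := by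
    intro i _
    rw [← map_prod]
    exact hapow i
  have h2 : ∀ w ∈ O₁, w ^ p = ζ := by
    intro w hw
    obtain ⟨g, -, rfl⟩ := (hO₁ w).mp hw
    exact hζ g
  refine ⟨O₁.card, ?_, ?_⟩
  · rw [himg, Finset.card_image_of_injOn hinjOn, Finset.card_product, Finset.card_range]
  · rw [himg, Finset.prod_image hinjOn, Finset.prod_product]
    show ∏ i ∈ Finset.range p, ∏ w ∈ O₁, φ (a ^ i) w = ζ ^ O₁.card
    rw [Finset.prod_congr rfl h1, Finset.prod_const, Finset.card_range, ← Finset.prod_pow,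
      Finset.prod_congr rfl h2, Finset.prod_const]

theorem invariant_prod {P Z : Type u} [Group P] [Finite P] [CommGroup Z] {p : ℕ}
    [hp : Fact p.Prime] (hP : IsPGroup p P) (φ : P →* MulAut Z)
    (hH : ∀ P₁ : Subgroup P, P₁.Normal → P₁.index = p → ∃ A : Subgroup P, ¬ A ≤ P₁ ∧
      ∀ w : Z, ∀ a ∈ A, (∀ b ∈ A, ∃ i : ℕ, i < p ∧ φ ((a ^ i)⁻¹ * b) w = w) → φ a w = w)
    (ζ : Z) :
    ∀ (n : ℕ) (Ω : Finset Z), Ω.card = n → (∀ w ∈ Ω, ∀ g : P, φ g w ∈ Ω) →
      (∀ w ∈ Ω, ∃ g : P, φ g w ≠ w) → (∀ w ∈ Ω, w ^ p = ζ) →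
      ∃ m : ℕ, Ω.card = p * m ∧ ∏ w ∈ Ω, w = ζ ^ m := by
  classical
  intro n
  induction n using Nat.strong_induction_on with
  | _ n ih =>
    intro Ω hn hinv hnofix hpow
    by_cases hemp : Ω = ∅
    · refine ⟨0, ?_, ?_⟩
      · rw [hemp]
        simp
      · rw [hemp]
        simp
    · obtain ⟨y, hyΩ⟩ := Finset.nonempty_iff_ne_empty.mpr hemp
      haveI : Fintype P := Fintype.ofFinite P
      obtain ⟨O, hO⟩ : ∃ O : Finset Z, ∀ w, w ∈ O ↔ ∃ g : P, w = φ g y := by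
        refine ⟨Finset.univ.image (fun g : P => φ g y), fun w => ?_⟩
        rw [Finset.mem_image]
        constructor
        · rintro ⟨g, -, rfl⟩
          exact ⟨g, rfl⟩
        · rintro ⟨g, rfl⟩
          exact ⟨g, Finset.mem_univ _, rfl⟩
      have hOΩ : O ⊆ Ω := by
        intro w hw
        obtain ⟨g, rfl⟩ := (hO w).mp hw
        exact hinv y hyΩ g
      have hyO : y ∈ O := (hO y).mpr ⟨1, by rw [map_one]; rfl⟩
      obtain ⟨m₁, hc₁, hp₁⟩ := orbit_prod hP φ hH y ζ (hnofix y hyΩ)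
        (fun g => hpow _ (hinv y hyΩ g)) O hO
      have hlt : (Ω \ O).card < n := by
        rw [← hn]
        apply Finset.card_lt_card
        exact Finset.sdiff_ssubset hOΩ ⟨y, hyO⟩
      have hinv' : ∀ w ∈ Ω \ O, ∀ g : P, φ g w ∈ Ω \ O := by
        intro w hw g
        rw [Finset.mem_sdiff] at hw ⊢
        refine ⟨hinv w hw.1 g, fun hgO => hw.2 ?_⟩
        obtain ⟨h, hh⟩ := (hO _).mp hgO
        refine (hO w).mpr ⟨g⁻¹ * h, ?_⟩
        rw [map_mul, MulAut.mul_apply, ← hh, map_inv, MulAut.inv_apply_self]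
      have hnofix' : ∀ w ∈ Ω \ O, ∃ g : P, φ g w ≠ w :=
        fun w hw => hnofix w (Finset.mem_sdiff.mp hw).1
      have hpow' : ∀ w ∈ Ω \ O, w ^ p = ζ :=
        fun w hw => hpow w (Finset.mem_sdiff.mp hw).1
      obtain ⟨m₂, hc₂, hp₂⟩ := ih _ hlt (Ω \ O) rfl hinv' hnofix' hpow'
      refine ⟨m₂ + m₁, ?_, ?_⟩
      · rw [← Finset.card_sdiff_add_card_eq_card hOΩ, hc₁, hc₂, mul_add]
      · rw [← Finset.prod_sdiff hOΩ, hp₁, hp₂, pow_add]

theorem fixed_of_orbit_abs {X Z : Type u} [Group X] [Finite X] [CommGroup Z] {p : ℕ}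
    [hp : Fact p.Prime] (ψ : X →* MulAut Z) (D : Subgroup X) (hDp : IsPGroup p D) (xh : Z)
    (hxp : ∀ g : X, ψ g (xh ^ p) = xh ^ p)
    (hDfix : ∀ d ∈ D, ψ d xh = xh)
    (hfix : ∀ r : X, (∀ d ∈ D, ψ d (ψ r xh) = ψ r xh) → ψ r xh = xh)
    (hH : ∀ P₁ : Subgroup D, P₁.Normal → P₁.index = p → ∃ A : Subgroup D, ¬ A ≤ P₁ ∧
      ∀ w : Z, ∀ a ∈ A,
        (∀ b ∈ A, ∃ i : ℕ, i < p ∧ (ψ.comp D.subtype) ((a ^ i)⁻¹ * b) w = w) →
        (ψ.comp D.subtype) a w = w) :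
    ∀ g : X, ψ g xh = xh := by
  classical
  haveI : Fintype X := Fintype.ofFinite X
  have hmul : ∀ (g h : X) (w : Z), ψ (g * h) w = ψ g (ψ h w) := fun g h w => by
    rw [map_mul]
    rfl
  have hone : ∀ w : Z, ψ 1 w = w := fun w => by
    rw [map_one]
    rfl
  obtain ⟨Ω, hΩ⟩ : ∃ Ω : Finset Z, ∀ w, w ∈ Ω ↔ ∃ g : X, w = ψ g xh := by
    refine ⟨Finset.univ.image (fun g : X => ψ g xh), fun w => ?_⟩
    rw [Finset.mem_image]
    constructor
    · rintro ⟨g, -, rfl⟩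
      exact ⟨g, rfl⟩
    · rintro ⟨g, rfl⟩
      exact ⟨g, Finset.mem_univ _, rfl⟩
  have hxΩ : xh ∈ Ω := (hΩ xh).mpr ⟨1, (hone xh).symm⟩
  have hΩinv : ∀ w ∈ Ω, ∀ g : X, ψ g w ∈ Ω := by
    intro w hw g
    obtain ⟨h, rfl⟩ := (hΩ w).mp hw
    exact (hΩ _).mpr ⟨g * h, (hmul g h xh).symm⟩
  have hΩpow : ∀ w ∈ Ω, w ^ p = xh ^ p := by
    intro w hw
    obtain ⟨h, rfl⟩ := (hΩ w).mp hw
    rw [← map_pow]
    exact hxp h
  have hinv : ∀ w ∈ Ω.erase xh, ∀ d : D, (ψ.comp D.subtype) d w ∈ Ω.erase xh := by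
    intro w hw d
    rw [Finset.mem_erase] at hw ⊢
    refine ⟨fun h => hw.1 ?_, hΩinv w hw.2 _⟩
    have h1 : ψ (d : X) w = ψ (d : X) xh := by
      rw [hDfix d d.2]
      exact h
    exact (ψ (d : X)).injective h1
  have hnofix : ∀ w ∈ Ω.erase xh, ∃ d : D, (ψ.comp D.subtype) d w ≠ w := by
    intro w hw
    rw [Finset.mem_erase] at hw
    obtain ⟨r, rfl⟩ := (hΩ w).mp hw.2
    by_contra hcon
    push Not at hcon
    exact hw.1 (hfix r (fun d hd => hcon ⟨d, hd⟩))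
  have hpow : ∀ w ∈ Ω.erase xh, w ^ p = xh ^ p :=
    fun w hw => hΩpow w (Finset.mem_erase.mp hw).2
  obtain ⟨m, -, hm⟩ := invariant_prod hDp (ψ.comp D.subtype) hH (xh ^ p) _ (Ω.erase xh) rfl
    hinv hnofix hpow
  intro g
  have hprod : ψ g (∏ w ∈ Ω, w) = ∏ w ∈ Ω, w :=
    prod_fixed (ψ g) Ω (fun w hw => hΩinv w hw g)
  rw [← Finset.mul_prod_erase Ω (fun w => w) hxΩ, hm, map_mul, map_pow, hxp] at hprod
  exact mul_right_cancel hprod

theorem central_of_orbit_family_aux {X : Type u} [Group X] [Finite X] {p : ℕ}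
    [hp : Fact p.Prime] (T : Sylow p X) (V : Subgroup X) [hVn : V.Normal]
    (hVc : ∀ a ∈ V, ∀ b ∈ V, a * b = b * a) (𝔄 : Set (Subgroup X))
    (h𝔄T : ∀ A ∈ 𝔄, A ≤ (T : Subgroup X))
    (h𝔄conj : ∀ A ∈ 𝔄, ∀ g : X, A.map (MulAut.conj g).toMonoidHom ≤ (T : Subgroup X) →
      A.map (MulAut.conj g).toMonoidHom ∈ 𝔄)
    (h𝔄Q : ∃ A ∈ 𝔄, ¬ A ≤ pCore p X)
    (h𝔄orb : ∀ A ∈ 𝔄, ∀ v ∈ V, ∀ a ∈ A,
      (∀ b ∈ A, ∃ i : ℕ, i < p ∧ ((a ^ i)⁻¹ * b) * v = v * ((a ^ i)⁻¹ * b)) → a * v = v * a) :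
    ∀ (n : ℕ) (x : X), orderOf x = n → x ∈ V → x ∈ (T : Subgroup X) →
      (∀ s ∈ (T : Subgroup X), s * x = x * s) →
      (∀ K : Subgroup X, (T : Subgroup X) ≤ K → K ≠ ⊤ → ∀ k ∈ K, k * x = x * k) →
      ∀ y : X, y * x = x * y := by
  classical
  intro n
  induction n using Nat.strong_induction_on with
  | _ n ih =>
    intro x hn hxV hxT hxS hmax
    by_cases hx1 : x = 1
    · intro y
      rw [hx1, mul_one, one_mul]
    have hxpc : ∀ y : X, y * x ^ p = x ^ p * y := by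
      have hlt : orderOf (x ^ p) < n := by
        obtain ⟨k, hk⟩ := T.isPGroup' ⟨x, hxT⟩
        have hk' : x ^ p ^ k = 1 := by simpa using congrArg Subtype.val hk
        obtain ⟨j, -, hj⟩ := (Nat.dvd_prime_pow hp.out).mp (orderOf_dvd_of_pow_eq_one hk')
        have hj0 : j ≠ 0 := by
          intro h0
          rw [h0, pow_zero] at hj
          exact hx1 (orderOf_eq_one_iff.mp hj)
        have hdvd : p ∣ orderOf x := by
          rw [hj]
          exact dvd_pow_self p hj0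
        rw [orderOf_pow_of_dvd hp.out.ne_zero hdvd, ← hn]
        exact Nat.div_lt_self (orderOf_pos x) hp.out.one_lt
      exact ih _ hlt (x ^ p) rfl (pow_mem hxV p) (pow_mem hxT p)
        (fun s hs => Commute.pow_right (hxS s hs) p)
        (fun K hK hKt k hk => Commute.pow_right (hmax K hK hKt k hk) p)
    obtain ⟨M, hM⟩ : ∃ M : Subgroup X, M = Subgroup.centralizer ({x} : Set X) := ⟨_, rfl⟩
    have hmemM : ∀ y, y ∈ M ↔ y * x = x * y := by
      intro y
      rw [hM, Subgroup.mem_centralizer_iff]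
      constructor
      · intro h
        exact (h x rfl).symm
      · intro h z hz
        rw [Set.mem_singleton_iff] at hz
        rw [hz]
        exact h.symm
    have hSM : (T : Subgroup X) ≤ M := fun s hs => (hmemM s).mpr (hxS s hs)
    have hmaxM : ∀ K : Subgroup X, (T : Subgroup X) ≤ K → K ≠ ⊤ → K ≤ M :=
      fun K hSK hK k hk => (hmemM k).mpr (hmax K hSK hK k hk)
    obtain ⟨D, hD⟩ : ∃ D : Subgroup X, D = sSup 𝔄 := ⟨_, rfl⟩
    have hAD : ∀ A ∈ 𝔄, A ≤ D := fun A hA => hD ▸ le_sSup hA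
    have hDT : D ≤ (T : Subgroup X) := hD ▸ sSup_le h𝔄T
    have hDp : IsPGroup p D := T.isPGroup'.to_le hDT
    have hmapA : ∀ g : X, (∀ A ∈ 𝔄, A.map (MulAut.conj g).toMonoidHom ≤ (T : Subgroup X)) →
        g ∈ Subgroup.normalizer ((D : Subgroup X) : Set X) := by
      intro g hg
      apply Cfsg.Agent.Lib.Helper14.mem_normalizer_of_map_conj_eq
      apply Subgroup.eq_of_le_of_card_ge
      · rw [Subgroup.map_le_iff_le_comap, hD]
        apply sSup_le
        intro A hA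
        rw [← Subgroup.map_le_iff_le_comap, ← hD]
        exact hAD _ (h𝔄conj A hA g (hg A hA))
      · exact (Cfsg.Agent.Lib.Helper14.card_map_conj _ _).ge
    have hTND : (T : Subgroup X) ≤ Subgroup.normalizer ((D : Subgroup X) : Set X) := by
      intro s hs
      apply hmapA
      intro A hA
      rintro _ ⟨a, ha, rfl⟩
      have e : (MulAut.conj s).toMonoidHom a = s * a * s⁻¹ := by simp [MulAut.conj_apply]
      rw [e]
      exact mul_mem (mul_mem hs (h𝔄T A hA ha)) (inv_mem hs)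
    have hND : Subgroup.normalizer ((D : Subgroup X) : Set X) ≠ ⊤ := by
      intro h
      have hn' : D.Normal := Subgroup.normalizer_eq_top_iff.mp h
      obtain ⟨A, hA, hAQ⟩ := h𝔄Q
      exact hAQ ((hAD A hA).trans (Cfsg.Agent.Lib.Helper14.le_pCore p hn' hDp))
    have hNDM := hmaxM _ hTND hND
    have hfix : ∀ r : X, (∀ a ∈ D, r⁻¹ * a * r ∈ M) → r ∈ M := by
      intro r hr
      have hBM : D.map (MulAut.conj r⁻¹).toMonoidHom ≤ M := by
        rintro _ ⟨a, ha, rfl⟩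
        have := hr a ha
        simpa [MulAut.conj_apply] using this
      have hidx : ¬ p ∣ (T : Subgroup X).relIndex M := fun hd =>
        T.not_dvd_index (hd.trans (Subgroup.relIndex_dvd_index_of_le hSM))
      obtain ⟨m, hmM, hm⟩ := Cfsg.Agent.Lib.Helper14.exists_conj_mem_of_relIndex T.isPGroup'
        hidx (hDp.map _) hBM
      have hg : m * r⁻¹ ∈ Subgroup.normalizer ((D : Subgroup X) : Set X) := by
        apply hmapA
        intro A hA
        rintro _ ⟨a, ha, rfl⟩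
        have h1 := hm (r⁻¹ * a * r) ⟨a, hAD A hA ha, by simp⟩
        have e : (MulAut.conj (m * r⁻¹)).toMonoidHom a = m * (r⁻¹ * a * r) * m⁻¹ := by
          show m * r⁻¹ * a * (m * r⁻¹)⁻¹ = m * (r⁻¹ * a * r) * m⁻¹
          group
        rw [e]
        exact h1
      have h2 : m * r⁻¹ ∈ M := hNDM hg
      have h3 : r⁻¹ ∈ M := by
        have := mul_mem (inv_mem hmM) h2
        rwa [inv_mul_cancel_left] at this
      exact inv_mem_iff.mp h3
    letI instCG : CommGroup ↥V :=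
      { (inferInstance : Group ↥V) with
        mul_comm := fun a b => Subtype.ext (hVc a a.2 b b.2) }
    have hψ : ∀ (g : X) (w : ↥V),
        ((MulAut.conjNormal g w : ↥V) : X) = g * (w : X) * g⁻¹ :=
      fun g w => MulAut.conjNormal_apply g w
    have hψfix : ∀ (g : X) (w : ↥V),
        MulAut.conjNormal g w = w ↔ g * (w : X) = (w : X) * g := by
      intro g w
      constructor
      · intro h
        have h1 : g * (w : X) * g⁻¹ = (w : X) := by
          rw [← hψ, h]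
        calc g * (w : X) = (g * (w : X) * g⁻¹) * g := by group
          _ = (w : X) * g := by rw [h1]
      · intro h
        apply Subtype.ext
        rw [hψ, h, mul_inv_cancel_right]
    have key : ∀ g : X, MulAut.conjNormal g (⟨x, hxV⟩ : ↥V) = ⟨x, hxV⟩ := by
      refine fixed_of_orbit_abs (Z := ↥V) (MulAut.conjNormal (H := V)) D hDp ⟨x, hxV⟩
        ?_ ?_ ?_ ?_
      · intro g
        refine (hψfix g _).mpr ?_
        exact hxpc g
      · intro d hd
        refine (hψfix d _).mpr ?_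
        exact hxS d (hDT hd)
      · intro r hr
        refine (hψfix r _).mpr ?_
        have hrM : r ∈ M := by
          apply hfix
          intro a ha
          rw [hmemM]
          have h1 := (hψfix a _).mp (hr a ha)
          have h2 : a * (r * x * r⁻¹) = (r * x * r⁻¹) * a := h1
          calc r⁻¹ * a * r * x = r⁻¹ * (a * (r * x * r⁻¹)) * r := by group
            _ = r⁻¹ * ((r * x * r⁻¹) * a) * r := by rw [h2]
            _ = x * (r⁻¹ * a * r) := by group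
        exact (hmemM r).mp hrM
      · intro P₁ hP₁n hidx
        have hex : ∃ A ∈ 𝔄, ¬ A.subgroupOf D ≤ P₁ := by
          by_contra hcon
          push Not at hcon
          have h1 : sSup 𝔄 ≤ P₁.map D.subtype := by
            apply sSup_le
            intro A hA a ha
            exact Subgroup.mem_map.mpr
              ⟨⟨a, hAD A hA ha⟩, hcon A hA (Subgroup.mem_subgroupOf.mpr ha), rfl⟩
          have htop : P₁ = ⊤ := by
            rw [eq_top_iff]
            intro d _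
            obtain ⟨q, hq, hqd⟩ := Subgroup.mem_map.mp (h1 (hD.le d.2))
            have hqd' : q = d := Subtype.ext hqd
            rw [← hqd']
            exact hq
          rw [htop, Subgroup.index_top] at hidx
          exact hp.out.one_lt.ne hidx
        obtain ⟨A, hA, hAP₁⟩ := hex
        refine ⟨A.subgroupOf D, hAP₁, ?_⟩
        intro w a ha hb
        have haA : (a : X) ∈ A := Subgroup.mem_subgroupOf.mp ha
        refine (hψfix (a : X) w).mpr ?_
        apply h𝔄orb A hA (w : X) w.2 (a : X) haA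
        intro b hbA
        obtain ⟨i, hi, hfx⟩ := hb ⟨b, hAD A hA hbA⟩ (Subgroup.mem_subgroupOf.mpr hbA)
        exact ⟨i, hi,
          (hψfix (((a ^ i)⁻¹ * (⟨b, hAD A hA hbA⟩ : ↥D) : ↥D) : X) w).mp hfx⟩
    intro y
    exact (hψfix y ⟨x, hxV⟩).mp (key y)

/-- The orbit-family centrality lemma. -/
theorem central_of_orbit_family {X : Type u} [Group X] [Finite X] {p : ℕ} [Fact p.Prime]
    (T : Sylow p X) (V : Subgroup X) [V.Normal]
    (hVc : ∀ a ∈ V, ∀ b ∈ V, a * b = b * a) (𝔄 : Set (Subgroup X))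
    (h𝔄T : ∀ A ∈ 𝔄, A ≤ (T : Subgroup X))
    (h𝔄conj : ∀ A ∈ 𝔄, ∀ g : X, A.map (MulAut.conj g).toMonoidHom ≤ (T : Subgroup X) →
      A.map (MulAut.conj g).toMonoidHom ∈ 𝔄)
    (h𝔄Q : ∃ A ∈ 𝔄, ¬ A ≤ pCore p X)
    (h𝔄orb : ∀ A ∈ 𝔄, ∀ v ∈ V, ∀ a ∈ A,
      (∀ b ∈ A, ∃ i : ℕ, i < p ∧ ((a ^ i)⁻¹ * b) * v = v * ((a ^ i)⁻¹ * b)) → a * v = v * a)
    (x : X) (hxV : x ∈ V) (hxT : x ∈ (T : Subgroup X))
    (hxS : ∀ s ∈ (T : Subgroup X), s * x = x * s)
    (hmax : ∀ K : Subgroup X, (T : Subgroup X) ≤ K → K ≠ ⊤ → ∀ k ∈ K, k * x = x * k) :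
    ∀ y : X, y * x = x * y :=
  central_of_orbit_family_aux T V hVc 𝔄 h𝔄T h𝔄conj h𝔄Q h𝔄orb _ x rfl hxV hxT hxS hmax

end Cfsg.Agent.Lib.Helper5.OrbFam
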