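import Cfsg.Agent.Lib.Helper5.Carter
import Cfsg.Agent.Lib.Helper5.ChiefCover
import Cfsg.Agent.S0543
import Cfsg.Agent.S0545

set_option autoImplicit false

namespace Cfsg.Agent.Lib.Helper5

open scoped Pointwise
open Cfsg

universe u

/-! ### Index lemmas -/

theorem index_eq_pow_factorization {G : Type*} [Group G] [Finite G] (H : Subgroup G) (p : ℕ)
    (hp : p.Prime) (i : ℕ) (hidx : H.index = p ^ i) (hcop : ¬ p ∣ Nat.card H) :
    H.index = p ^ (Nat.card G).factorization p := by
  rw [hidx]; congr 1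
  have h1 := Subgroup.card_mul_index H
  rw [hidx] at h1
  rw [← h1, Nat.factorization_mul Nat.card_pos.ne' (pow_ne_zero _ hp.ne_zero), Finsupp.add_apply,
    Nat.factorization_eq_zero_of_not_dvd hcop, zero_add, Nat.Prime.factorization_pow hp]
  simp

theorem relIndex_sup_normal {G : Type*} [Group G] [Finite G] (K N : Subgroup G) [N.Normal] :
    K.relIndex (K ⊔ N) = K.relIndex N := by
  have h1 := relIndex_mul_index_sup K N
  have h2 : K.relIndex (K ⊔ N) * (K ⊔ N).index = K.index := Subgroup.relIndex_mul_index le_sup_left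
  have h3 : (K ⊔ N).index ≠ 0 := Subgroup.index_ne_zero_of_finite
  exact Nat.eq_of_mul_eq_mul_right (Nat.pos_of_ne_zero h3) (h2.trans h1.symm)

/-- `[CN : QN]` divides `[C : Q]`. -/
theorem relIndex_sup_dvd {G : Type*} [Group G] [Finite G] (Q C N : Subgroup G) [N.Normal]
    (hQC : Q ≤ C) : (Q ⊔ N).relIndex (C ⊔ N) ∣ Q.relIndex C := by
  have h1 := relIndex_sup_normal Q N
  have h2 := relIndex_sup_normal C N
  have h3 := Subgroup.relIndex_mul_relIndex Q (Q ⊔ N) (C ⊔ N) le_sup_left (sup_le_sup_right hQC N)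
  have h4 := Subgroup.relIndex_mul_relIndex Q C (C ⊔ N) hQC le_sup_left
  obtain ⟨t, ht⟩ : C.relIndex N ∣ Q.relIndex N := Subgroup.relIndex_dvd_of_le_left N hQC
  rw [h1, ht] at h3
  rw [h2] at h4
  have h5 : C.relIndex N ≠ 0 := Subgroup.index_ne_zero_of_finite
  have h6 : C.relIndex N * (t * (Q ⊔ N).relIndex (C ⊔ N)) = C.relIndex N * Q.relIndex C := by
    rw [← mul_assoc, h3, ← h4, mul_comm]
  have h7 := Nat.eq_of_mul_eq_mul_left (Nat.pos_of_ne_zero h5) h6
  exact Dvd.intro_left _ h7

theorem eq_one_of_dvd_pow_of_dvd {d p a m : ℕ} (hp : p.Prime) (h1 : d ∣ p ^ a) (h2 : d ∣ m)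
    (h3 : ¬ p ∣ m) : d = 1 := by
  obtain ⟨j, -, rfl⟩ := (Nat.dvd_prime_pow hp).mp h1
  rcases Nat.eq_zero_or_pos j with hj | hj
  · rw [hj, pow_zero]
  · exact absurd ((dvd_pow_self p hj.ne').trans h2) h3

/-- A normal subgroup of order prime to `p` lies in every subgroup of `p`-power index. -/
theorem normal_le_of_coprime {G : Type*} [Group G] [Finite G] (K M : Subgroup G) [M.Normal]
    (p : ℕ) (hp : p.Prime) (hK : ∃ a, K.index = p ^ a) (hM : (Nat.card M).Coprime p) :
    M ≤ K := by
  obtain ⟨a, ha⟩ := hK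
  have h1 : K.relIndex M ∣ p ^ a := by
    rw [← ha, ← relIndex_mul_index_sup K M]; exact Dvd.intro _ rfl
  have h2 : K.relIndex M ∣ Nat.card M := Subgroup.relIndex_dvd_card _ _
  have h3 : ¬ p ∣ Nat.card M := fun h => by
    have := Nat.Coprime.eq_one_of_dvd hM.symm h
    exact hp.one_lt.ne' this
  exact Subgroup.relIndex_eq_one.mp (eq_one_of_dvd_pow_of_dvd hp h1 h2 h3)

theorem card_subgroupOf_dvd {G : Type*} [Group G] (A H : Subgroup G) :
    Nat.card (A.subgroupOf H) ∣ Nat.card A := by
  rw [← Subgroup.card_map_of_injective H.subtype_injective, Subgroup.subgroupOf_map_subtype]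
  exact Subgroup.card_dvd_of_le inf_le_left

/-! ### Complement systems reducing into a Carter subgroup -/

theorem exists_reducing_system {G : Type u} [Group G] [Finite G] [Group.IsSolvable G]
    (C : Subgroup G) (hC : Group.IsNilpotent C) :
    ∃ K : Nat.Primes → Subgroup G, IsComplementSystem K ∧
      ∀ p : Nat.Primes, ∀ x ∈ C, (orderOf x).Coprime p → x ∈ K p := by
  classical
  have key : ∀ p : Nat.Primes, ∃ H : Subgroup G,
      H.index = (p : ℕ) ^ (Nat.card G).factorization p ∧
      ∀ x ∈ C, (orderOf x).Coprime p → x ∈ H := by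
    intro p
    obtain ⟨Q, k, hQC, hQcop, -, -, -, hQmem, -, -⟩ := exists_prime_part C hC p p.2
    obtain ⟨a, ha⟩ : ∃ a, a = (Nat.card G).factorization p := ⟨_, rfl⟩
    obtain ⟨m, hm⟩ : ∃ m, m = Nat.card G / (p : ℕ) ^ a := ⟨_, rfl⟩
    have hcard : Nat.card G = m * (p : ℕ) ^ a := by
      rw [hm, ha]; exact (Nat.div_mul_cancel (Nat.ordProj_dvd _ _)).symm
    have hmp : m.Coprime p := by
      rw [hm, ha]; exact (Nat.coprime_ordCompl p.2 Nat.card_pos.ne').symm
    have hm0 : 0 < m := by
      rcases Nat.eq_zero_or_pos m with h | h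
      · rw [h, zero_mul] at hcard; exact absurd hcard Nat.card_pos.ne'
      · exact h
    obtain ⟨-, -, h3⟩ := Cfsg.Agent.Lib.Helper1.hall_aux (Nat.card G) G le_rfl m ((p : ℕ) ^ a)
      hcard (Nat.Coprime.pow_right a hmp)
    obtain ⟨H, hH, hQH⟩ := h3 Q (Nat.Coprime.pow_right a hQcop)
    refine ⟨H, ?_, fun x hx hxp => hQH (hQmem x hx hxp)⟩
    have h1 := Subgroup.card_mul_index H
    rw [hH, hcard] at h1
    rw [← ha]
    exact Nat.eq_of_mul_eq_mul_left hm0 h1
  choose K hK1 hK2 using key
  exact ⟨K, hK1, hK2⟩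

theorem sysnorm_le_carter_aux (n : ℕ) : ∀ (G : Type u) [Group G] [Finite G]
    [Group.IsSolvable G], Nat.card G ≤ n → ∀ (C : Subgroup G) (K : Nat.Primes → Subgroup G),
    IsCarterSubgroup C → IsComplementSystem K →
    (∀ p : Nat.Primes, ∀ x ∈ C, (orderOf x).Coprime p → x ∈ K p) →
    systemNormalizer K ≤ C := by
  induction n with
  | zero =>
    intro G _ _ _ hn
    have := Nat.card_pos (α := G)
    omega
  | succ n ih =>
    intro G _ _ _ hn C K hC hK hred
    classical
    by_cases hnil : Group.IsNilpotent G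
    · rw [carter_eq_top hC]; exact le_top
    have hnt : Nontrivial G := by
      by_contra hsubs
      rw [not_nontrivial_iff_subsingleton] at hsubs
      exact hnil inferInstance
    obtain ⟨N, hNn, hNbot, -, hNmin⟩ :=
      exists_minimal_normal (⊤ : Subgroup G) Subgroup.normal_top top_ne_bot
    have := hNn
    have hab := minimal_normal_comm hNbot hNmin
    obtain ⟨r, hr, hNr⟩ := minimal_normal_isPGroup hNbot hNmin
    have := Fact.mk hr
    obtain ⟨b, hb⟩ := IsPGroup.iff_card.mp hNr
    have hKcop : ∀ p : Nat.Primes, ¬ (p : ℕ) ∣ Nat.card (K p) :=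
      fun p => not_dvd_card_of_index_eq (K p) p p.2 (hK p)
    have hpart : ∀ p : ℕ, p.Prime → ∀ Kp : Subgroup G,
        (∀ x ∈ C, (orderOf x).Coprime p → x ∈ Kp) →
        ∃ (Q : Subgroup G) (k : ℕ), Q ≤ C ∧ Q ≤ Kp ∧
        Q.relIndex C = p ^ k ∧ (∀ x ∈ C, x ^ (p ^ k) ∈ Q) ∧
        Nat.card Q * p ^ k = Nat.card C ∧
        Subgroup.normalizer (C : Set G) ≤ Subgroup.normalizer (Q : Set G) := by
      intro p hp Kp hKp
      obtain ⟨Q, k, hQC, hQcop, hQidx, hQcard, hQpow, hQmem, hQord, hQnorm⟩ :=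
        exists_prime_part C hC.1 p hp
      exact ⟨Q, k, hQC, fun x hx => hKp x (hQC hx) (hQord x hx), hQidx, hQpow, hQcard,
        hQnorm⟩
    have hquot : ∀ (M : Subgroup G) [M.Normal], M ≠ ⊥ → systemNormalizer K ≤ C ⊔ M := by
      intro M _ hM
      obtain ⟨hK', hD'⟩ := Cfsg.Agent.S0545.result K hK M
      have hlt := card_quotient_lt hM
      have hred' : ∀ p : Nat.Primes, ∀ x ∈ C.map (QuotientGroup.mk' M),
          (orderOf x).Coprime p → x ∈ (K p).map (QuotientGroup.mk' M) := by
        rintro p _ ⟨c, hc, rfl⟩ hcop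
        obtain ⟨Q, k, hQC, hQK, hQidx, hQpow, -, -⟩ := hpart p p.2 (K p) (hred p)
        obtain ⟨j, hj⟩ := exists_pow_eq_self_of_coprime (x := QuotientGroup.mk' M c)
          (n := (p : ℕ) ^ k) (Nat.Coprime.pow_left k hcop.symm)
        rw [← hj, ← map_pow, ← map_pow]
        exact Subgroup.mem_map_of_mem _ (Subgroup.pow_mem _ (hQK (hQpow c hc)) j)
      have h1 := ih (G ⧸ M) (by omega) (C.map (QuotientGroup.mk' M)) _
        (carter_map _ (QuotientGroup.mk'_surjective M) hC) hK' hred'
      rw [hD'] at h1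
      intro d hd
      obtain ⟨c, hc, hcd⟩ := h1 (Subgroup.mem_map_of_mem _ hd)
      have h2 : c⁻¹ * d ∈ M := by
        rw [← QuotientGroup.eq]; exact hcd
      have h3 : d = c * (c⁻¹ * d) := by group
      rw [h3]
      exact Subgroup.mul_mem _ (Subgroup.mem_sup_left hc) (Subgroup.mem_sup_right h2)
    have hDH := hquot N hNbot
    by_cases hH : C ⊔ N = ⊤
    · obtain ⟨Q, k, hQC, hQK, hQidx, hQpow, hQcard, hQnorm⟩ :=
        hpart r hr (K ⟨r, hr⟩) (hred ⟨r, hr⟩)
      rcases eq_top_or_eq_of_sup_eq_top hab hNmin hH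
        (Y := Subgroup.normalizer (Q : Set G)) (Subgroup.le_normalizer.trans hQnorm) with hY | hY
      · have hQn : Q.Normal := Subgroup.normalizer_eq_top_iff.mp hY
        by_cases hQbot : Q = ⊥
        · exfalso
          apply hnil
          have hCp : IsPGroup r C := by
            apply IsPGroup.of_card (n := k)
            rw [← hQcard, hQbot, Subgroup.card_bot, one_mul]
          have hG : IsPGroup r (C ⊔ N : Subgroup G) := hCp.to_sup_of_normal_right hNr
          rw [hH] at hG
          exact (hG.of_equiv Subgroup.topEquiv).isNilpotent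
        · have h1 := hquot Q hQbot
          rwa [sup_of_le_left hQC] at h1
      · have hKQ : K ⟨r, hr⟩ = Q := by
          have h1 : Q.index = r ^ k * C.index := by
            rw [← hQidx]; exact (Subgroup.relIndex_mul_index hQC).symm
          have h2 : C.index ∣ r ^ b := by
            rw [index_eq_relIndex_of_sup_eq_top C N hH, ← hb]
            exact Subgroup.relIndex_dvd_card _ _
          have h3 : Q.relIndex (K ⟨r, hr⟩) ∣ r ^ (k + b) := by
            refine (Subgroup.relIndex_dvd_index_of_le hQK).trans ?_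
            rw [h1, pow_add]; exact Nat.mul_dvd_mul_left _ h2
          have h4 := eq_one_of_dvd_pow_of_dvd hr h3 (Subgroup.relIndex_dvd_card _ _)
            (hKcop ⟨r, hr⟩)
          exact le_antisymm (Subgroup.relIndex_eq_one.mp h4) hQK
        intro d hd
        have h5 : d ∈ Subgroup.normalizer ((K ⟨r, hr⟩ : Subgroup G) : Set G) :=
          (Subgroup.mem_iInf.mp hd) ⟨r, hr⟩
        rw [hKQ, hY] at h5
        exact h5
    · obtain ⟨H, hHdef⟩ : ∃ H : Subgroup G, H = C ⊔ N := ⟨_, rfl⟩
      rw [← hHdef] at hH hDH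
      have hCH : C ≤ H := hHdef ▸ le_sup_left
      have hlt := card_lt_of_ne_top hH
      have hK' : IsComplementSystem (fun p => (K p).subgroupOf H) := by
        intro p
        change ((K p).subgroupOf H).index = (p : ℕ) ^ (Nat.card H).factorization p
        obtain ⟨Q, k, hQC, hQK, hQidx, hQpow, hQcard, hQnorm⟩ := hpart p p.2 (K p) (hred p)
        have hpow : ∃ i, (K p).relIndex H = (p : ℕ) ^ i := by
          by_cases hpr : (p : ℕ) = r
          · have h1 : Q.relIndex H = (p : ℕ) ^ k * C.relIndex H := by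
              rw [← hQidx]; exact (Subgroup.relIndex_mul_relIndex Q C H hQC hCH).symm
            have h2 : C.relIndex H ∣ (p : ℕ) ^ b := by
              rw [hHdef, relIndex_sup_normal, hpr, ← hb]
              exact Subgroup.relIndex_dvd_card _ _
            have h3 : (K p).relIndex H ∣ (p : ℕ) ^ (k + b) := by
              refine (Subgroup.relIndex_dvd_of_le_left H hQK).trans ?_
              rw [h1, pow_add]; exact Nat.mul_dvd_mul_left _ h2
            obtain ⟨i, -, hi⟩ := (Nat.dvd_prime_pow p.2).mp h3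
            exact ⟨i, hi⟩
          · have hNK : N ≤ K p := normal_le_of_coprime (K p) N p p.2 ⟨_, hK p⟩ (by
              rw [hb]
              exact Nat.Coprime.pow_left b ((Nat.coprime_primes hr p.2).mpr (Ne.symm hpr)))
            have h1 : (Q ⊔ N).relIndex H ∣ (p : ℕ) ^ k := by
              rw [hHdef, ← hQidx]; exact relIndex_sup_dvd Q C N hQC
            have h3 : (K p).relIndex H ∣ (p : ℕ) ^ k :=
              (Subgroup.relIndex_dvd_of_le_left H (sup_le hQK hNK)).trans h1
            obtain ⟨i, -, hi⟩ := (Nat.dvd_prime_pow p.2).mp h3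
            exact ⟨i, hi⟩
        obtain ⟨i, hi⟩ := hpow
        apply index_eq_pow_factorization _ p p.2 i hi
        intro hdvd
        exact hKcop p (hdvd.trans (card_subgroupOf_dvd (K p) H))
      have hred' : ∀ p : Nat.Primes, ∀ x ∈ C.subgroupOf H, (orderOf x).Coprime p →
          x ∈ (K p).subgroupOf H := by
        intro p x hx hxp
        rw [Subgroup.mem_subgroupOf] at hx ⊢
        exact hred p x hx (by rwa [Subgroup.orderOf_coe])
      have h1 := ih H (by omega) (C.subgroupOf H) _ (carter_subgroupOf hCH hC) hK' hred'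
      intro d hd
      have hdH : d ∈ H := hDH hd
      have h2 : (⟨d, hdH⟩ : H) ∈ systemNormalizer (fun p => (K p).subgroupOf H) := by
        refine Subgroup.mem_iInf.mpr (fun p => ?_)
        have h3 : d ∈ Subgroup.normalizer ((K p : Subgroup G) : Set G) :=
          (Subgroup.mem_iInf.mp hd) p
        rw [Subgroup.mem_normalizer_iff] at h3 ⊢
        intro h
        rw [Subgroup.mem_subgroupOf, Subgroup.mem_subgroupOf]
        exact h3 h
      exact Subgroup.mem_subgroupOf.mp (h1 h2)

/-- If a complement system reduces into a Carter subgroup `C`, then its system normalizer lies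
in `C`. -/
theorem sysnorm_le_carter {G : Type u} [Group G] [Finite G] [Group.IsSolvable G]
    {C : Subgroup G} {K : Nat.Primes → Subgroup G} (hC : IsCarterSubgroup C)
    (hK : IsComplementSystem K)
    (hred : ∀ p : Nat.Primes, ∀ x ∈ C, (orderOf x).Coprime p → x ∈ K p) :
    systemNormalizer K ≤ C :=
  sysnorm_le_carter_aux (Nat.card G) G le_rfl C K hC hK hred

theorem systemNormalizer_conj {G : Type*} [Group G] (g : G) (K L : Nat.Primes → Subgroup G)
    (h : ∀ p, MulAut.conj g • K p = L p) :
    systemNormalizer L = MulAut.conj g • systemNormalizer K := by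
  ext x
  rw [mem_conj_smul_iff]
  simp only [systemNormalizer, Subgroup.mem_iInf]
  refine forall_congr' (fun p => ?_)
  rw [← h p, mem_normalizer_conj_smul_iff]

theorem conj_smul_le_conj_smul {G : Type*} [Group G] (g : G) {A B : Subgroup G} (h : A ≤ B) :
    MulAut.conj g • A ≤ MulAut.conj g • B := by
  intro x hx
  rw [mem_conj_smul_iff] at hx ⊢
  exact h hx

end Cfsg.Agent.Lib.Helper5
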