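import Mathlib

set_option autoImplicit false

namespace Cfsg.Agent.Lib.Helper5

/-- If two coprime integer powers of `a` lie in `S` then so does `a`. -/
theorem cab_mem_of_zpow_mem {G : Type*} [Group G] (S : Subgroup G) (a : G) {m n : ℤ}
    (h : IsCoprime m n) (hm : a ^ m ∈ S) (hn : a ^ n ∈ S) : a ∈ S := by
  obtain ⟨u, v, huv⟩ := h
  have h1 : a = (a ^ m) ^ u * (a ^ n) ^ v := by
    rw [← zpow_mul, ← zpow_mul, ← zpow_add, mul_comm m u, mul_comm n v, huv, zpow_one]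
  rw [h1]
  exact S.mul_mem (S.zpow_mem hm _) (S.zpow_mem hn _)

/-- If two coprime natural powers of `a` lie in `S` then so does `a`. -/
theorem cab_mem_of_pow_mem {G : Type*} [Group G] (S : Subgroup G) (a : G) {m n : ℕ}
    (h : Nat.Coprime m n) (hm : a ^ m ∈ S) (hn : a ^ n ∈ S) : a ∈ S := by
  refine cab_mem_of_zpow_mem S a (Nat.isCoprime_iff_coprime.mpr h) ?_ ?_
  · rw [zpow_natCast]; exact hm
  · rw [zpow_natCast]; exact hn

/-- Enlarging `C` by an element `a` with `a ^ p ∈ C`, `a ∉ S ⊔ C` adds nothing to `C ⊓ S`. -/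
theorem cab_sup_zpowers_inf_le {A : Type*} [CommGroup A] {p : ℕ} (hp : p.Prime)
    (S C : Subgroup A) (a : A) (hap : a ^ p ∈ C) (ha : a ∉ S ⊔ C) :
    (C ⊔ Subgroup.zpowers a) ⊓ S ≤ C := by
  rintro z ⟨hz1, hz2⟩
  obtain ⟨c, hc, w, hw, rfl⟩ := Subgroup.mem_sup.mp hz1
  obtain ⟨n, rfl⟩ := Subgroup.mem_zpowers_iff.mp hw
  by_cases hpn : (p : ℤ) ∣ n
  · obtain ⟨m, rfl⟩ := hpn
    refine C.mul_mem hc ?_
    rw [zpow_mul, zpow_natCast]
    exact C.zpow_mem hap m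
  · exfalso
    apply ha
    have hcop : IsCoprime (p : ℤ) n :=
      (Nat.prime_iff_prime_int.mp hp).coprime_iff_not_dvd.mpr hpn
    refine cab_mem_of_zpow_mem (S ⊔ C) a hcop ?_ ?_
    · rw [zpow_natCast]; exact Subgroup.mem_sup_right hap
    · have h3 := (S ⊔ C).mul_mem (Subgroup.mem_sup_right (C.inv_mem hc))
        (Subgroup.mem_sup_left hz2)
      rwa [inv_mul_cancel_left] at h3

/-- Complement modulo `N` inside `B` when `B / N` has exponent `p`. -/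
theorem cab_exists_compl_mod {A : Type*} [CommGroup A] [Finite A] {p : ℕ} (hp : p.Prime)
    (N K B : Subgroup A) (hNK : N ≤ K) (hKB : K ≤ B) (hpow : ∀ b ∈ B, b ^ p ∈ N) :
    ∃ C₀ : Subgroup A, C₀ ⊓ K ≤ N ∧ B ≤ K ⊔ C₀ := by
  obtain ⟨C, ⟨hC1, hC2, hC3⟩, hmax⟩ := (wellFounded_gt (α := Subgroup A)).has_min
    {C | N ≤ C ∧ C ≤ B ∧ C ⊓ K ≤ N} ⟨N, le_refl _, hNK.trans hKB, inf_le_left⟩
  refine ⟨C, hC3, ?_⟩
  intro b hb
  by_contra hbn
  have hlt : C < C ⊔ Subgroup.zpowers b := by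
    refine lt_of_le_of_ne le_sup_left ?_
    intro h
    apply hbn
    have h4 : b ∈ C := by
      rw [h]; exact Subgroup.mem_sup_right (Subgroup.mem_zpowers b)
    exact Subgroup.mem_sup_right h4
  refine hmax (C ⊔ Subgroup.zpowers b)
    ⟨hC1.trans le_sup_left, sup_le hC2 ((Subgroup.zpowers_le).mpr hb), ?_⟩ hlt
  exact fun z hz => hC3 ⟨cab_sup_zpowers_inf_le hp K C b (hC1 (hpow b hb)) hbn hz, hz.2⟩

/-- A subgroup `B` of an abelian group of exponent dividing `p ^ (e + 1)` in which every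
element killed by `p ^ e` is a `p`-th power (in `B`) has a complement. -/
theorem cab_exists_compl {A : Type*} [CommGroup A] [Finite A] {p : ℕ} (hp : p.Prime) (e : ℕ)
    (he : ∀ a : A, a ^ p ^ (e + 1) = 1) (B : Subgroup A)
    (hH : ∀ b ∈ B, b ^ p ^ e = 1 → ∃ b₁ ∈ B, b₁ ^ p = b) :
    ∃ C : Subgroup A, B ⊓ C = ⊥ ∧ B ⊔ C = ⊤ := by
  classical
  obtain ⟨C, hC, hmax⟩ := (wellFounded_gt (α := Subgroup A)).has_min
    {C | B ⊓ C = ⊥} ⟨⊥, inf_bot_eq _⟩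
  have hC' : B ⊓ C = ⊥ := hC
  refine ⟨C, hC', ?_⟩
  by_contra hne
  obtain ⟨a₀, ha₀⟩ : ∃ a, a ∉ B ⊔ C := by
    by_contra h
    push Not at h
    exact hne (eq_top_iff.mpr fun x _ => h x)
  have hex : ∃ j, a₀ ^ p ^ j ∈ B ⊔ C := ⟨e + 1, by rw [he]; exact one_mem _⟩
  have hj := Nat.find_spec hex
  have hj0 : Nat.find hex ≠ 0 := by
    intro h0
    rw [h0, pow_zero, pow_one] at hj
    exact ha₀ hj
  obtain ⟨j, hjs⟩ : ∃ j, Nat.find hex = j + 1 := ⟨Nat.find hex - 1, by omega⟩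
  have hjm : a₀ ^ p ^ j ∉ B ⊔ C := Nat.find_min hex (by omega)
  obtain ⟨a, haeq⟩ : ∃ a, a = a₀ ^ p ^ j := ⟨_, rfl⟩
  have ha1 : a ∉ B ⊔ C := by rw [haeq]; exact hjm
  have ha2 : a ^ p ∈ B ⊔ C := by
    rw [haeq, ← pow_mul, ← pow_succ, ← hjs]; exact hj
  obtain ⟨b, hb, c, hc, hbc⟩ := Subgroup.mem_sup.mp ha2
  have hb1 : b ^ p ^ e = 1 := by
    have h1 : (b * c) ^ p ^ e = 1 := by
      rw [hbc, ← pow_mul, ← pow_succ']; exact he a
    rw [mul_pow] at h1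
    have h2 : b ^ p ^ e ∈ B ⊓ C := ⟨B.pow_mem hb _, by
      rw [eq_inv_of_mul_eq_one_left h1]; exact C.inv_mem (C.pow_mem hc _)⟩
    rw [hC'] at h2
    exact (Subgroup.mem_bot).mp h2
  obtain ⟨b₁, hb₁, hb₁p⟩ := hH b hb hb1
  have ha'1 : a * b₁⁻¹ ∉ B ⊔ C := by
    intro h
    apply ha1
    have h3 := (B ⊔ C).mul_mem h (Subgroup.mem_sup_left hb₁)
    rwa [inv_mul_cancel_right] at h3
  have ha'2 : (a * b₁⁻¹) ^ p ∈ C := by
    rw [mul_pow, inv_pow, hb₁p, ← hbc, mul_comm b c, mul_inv_cancel_right]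
    exact hc
  have hlt : C < C ⊔ Subgroup.zpowers (a * b₁⁻¹) := by
    refine lt_of_le_of_ne le_sup_left ?_
    intro h
    apply ha'1
    have h4 : a * b₁⁻¹ ∈ C := by
      rw [h]; exact Subgroup.mem_sup_right (Subgroup.mem_zpowers _)
    exact Subgroup.mem_sup_right h4
  refine hmax (C ⊔ Subgroup.zpowers (a * b₁⁻¹)) ?_ hlt
  show B ⊓ (C ⊔ Subgroup.zpowers (a * b₁⁻¹)) = ⊥
  rw [eq_bot_iff]
  intro z hz
  have hzC : z ∈ C := cab_sup_zpowers_inf_le hp B C _ ha'2 ha'1 ⟨hz.2, hz.1⟩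
  rw [← hC']
  exact ⟨hz.1, hzC⟩

/-- Maschke-type averaging: a complement modulo `N` of a stable subgroup `K` in a stable
subgroup `B` can be replaced by a stable one, when the acting group has order prime to the
exponent of `K / N`. -/
theorem cab_avg_complement {A : Type*} [CommGroup A] [Finite A] (X : Subgroup (MulAut A))
    (M : ℕ) (hX : (Nat.card X).Coprime M) (N K B C₀ : Subgroup A)
    (hN : ∀ x ∈ X, ∀ a ∈ N, x a ∈ N) (hK : ∀ x ∈ X, ∀ a ∈ K, x a ∈ K)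
    (hB : ∀ x ∈ X, ∀ a ∈ B, x a ∈ B)
    (hNK : N ≤ K) (hKB : K ≤ B) (h1 : C₀ ⊓ K ≤ N) (h2 : B ≤ K ⊔ C₀)
    (hM : ∀ k ∈ K, k ^ M ∈ N) :
    ∃ C : Subgroup A, (∀ x ∈ X, ∀ a ∈ C, x a ∈ C) ∧ N ≤ C ∧ C ≤ B ∧ C ⊓ K ≤ N ∧
      B ≤ K ⊔ C := by
  classical
  have : Fintype X := Fintype.ofFinite X
  obtain ⟨π, hπ⟩ : ∃ π : A →* A ⧸ N, ∀ a, π a = 1 ↔ a ∈ N :=
    ⟨QuotientGroup.mk' N, fun a => QuotientGroup.eq_one_iff a⟩
  have hπx : ∀ x ∈ X, ∀ u v : A, u * v⁻¹ ∈ N → π (x u) = π (x v) := by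
    intro x hx u v huv
    have h3 := (hπ _).mpr (hN x hx _ huv)
    rw [map_mul, map_inv, map_mul, map_inv] at h3
    exact mul_inv_eq_one.mp h3
  have hκ : ∀ b : A, ∃ k : A, b ∈ B → (k ∈ K ∧ b * k⁻¹ ∈ C₀) := by
    intro b
    by_cases hb : b ∈ B
    · obtain ⟨k, hk, c, hc, hkc⟩ := Subgroup.mem_sup.mp (h2 hb)
      refine ⟨k, fun _ => ⟨hk, ?_⟩⟩
      rw [← hkc, mul_comm k c, mul_inv_cancel_right]
      exact hc
    · exact ⟨1, fun h => absurd h hb⟩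
  choose κ hκ using hκ
  have huniq : ∀ b ∈ B, ∀ k ∈ K, b * k⁻¹ ∈ C₀ → κ b * k⁻¹ ∈ N := by
    intro b hb k hk hc
    apply h1
    refine ⟨?_, K.mul_mem (hκ b hb).1 (K.inv_mem hk)⟩
    have h3 := C₀.mul_mem hc (C₀.inv_mem (hκ b hb).2)
    have e : (b * k⁻¹) * (b * (κ b)⁻¹)⁻¹ = κ b * k⁻¹ := by
      apply Additive.ofMul.injective
      simp only [ofMul_mul, ofMul_inv]
      abel
    rwa [e] at h3
  obtain ⟨θ, hθ⟩ : ∃ θ : A → A,
      ∀ a, θ a = ∏ x : X, (x : MulAut A) (κ ((x : MulAut A)⁻¹ a)) :=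
    ⟨fun a => ∏ x : X, (x : MulAut A) (κ ((x : MulAut A)⁻¹ a)), fun a => rfl⟩
  have F1 : ∀ a ∈ B, θ a ∈ K := by
    intro a ha
    rw [hθ]
    exact Subgroup.prod_mem K fun x _ => hK x x.2 _ (hκ _ (hB _ (X.inv_mem x.2) a ha)).1
  have F2 : ∀ a ∈ B, ∀ b ∈ B, π (θ (a * b)) = π (θ a) * π (θ b) := by
    intro a ha b hb
    simp only [hθ, map_prod]
    rw [← Finset.prod_mul_distrib]
    refine Finset.prod_congr rfl fun x _ => ?_
    rw [← map_mul, ← map_mul]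
    have hxa := hB _ (X.inv_mem x.2) a ha
    have hxb := hB _ (X.inv_mem x.2) b hb
    refine hπx x x.2 _ _ (huniq _ (hB _ (X.inv_mem x.2) _ (B.mul_mem ha hb)) _
      (K.mul_mem (hκ _ hxa).1 (hκ _ hxb).1) ?_)
    have h3 := C₀.mul_mem (hκ _ hxa).2 (hκ _ hxb).2
    have e : ((x : MulAut A)⁻¹ a * (κ ((x : MulAut A)⁻¹ a))⁻¹) *
        ((x : MulAut A)⁻¹ b * (κ ((x : MulAut A)⁻¹ b))⁻¹) =
        (x : MulAut A)⁻¹ (a * b) *
          (κ ((x : MulAut A)⁻¹ a) * κ ((x : MulAut A)⁻¹ b))⁻¹ := by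
      rw [map_mul]
      apply Additive.ofMul.injective
      simp only [ofMul_mul, ofMul_inv]
      abel
    rwa [e] at h3
  have F3 : ∀ y ∈ X, ∀ a, θ (y a) = y (θ a) := by
    intro y hy a
    simp only [hθ, map_prod]
    refine (Equiv.prod_comp (Equiv.mulLeft (⟨y, hy⟩ : X))
      (fun x : X => (x : MulAut A) (κ ((x : MulAut A)⁻¹ (y a))))).symm.trans ?_
    refine Finset.prod_congr rfl fun x _ => ?_
    simp only [Equiv.coe_mulLeft, Subgroup.coe_mul, mul_inv_rev, MulAut.mul_apply,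
      MulAut.inv_apply_self]
  have F4 : ∀ k ∈ K, π (θ k) = π k ^ Nat.card X := by
    intro k hk
    simp only [hθ, map_prod]
    rw [Nat.card_eq_fintype_card, ← Finset.card_univ, ← Finset.prod_const]
    refine Finset.prod_congr rfl fun x _ => ?_
    have hxk := hK _ (X.inv_mem x.2) k hk
    have h3 := hπx x x.2 _ _
      (huniq _ (hKB hxk) _ hxk (by rw [mul_inv_cancel]; exact one_mem _))
    rw [h3, MulAut.apply_inv_self]
  have hθ1 : π (θ 1) = 1 := by rw [F4 1 (one_mem K), map_one, one_pow]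
  obtain ⟨C, hC⟩ : ∃ C : Subgroup A, ∀ a, a ∈ C ↔ (a ∈ B ∧ π (θ a) = 1) :=
    ⟨{ carrier := {a | a ∈ B ∧ π (θ a) = 1}
       one_mem' := ⟨one_mem B, hθ1⟩
       mul_mem' := by
         rintro a b ⟨ha, hta⟩ ⟨hb, htb⟩
         exact ⟨B.mul_mem ha hb, by rw [F2 a ha b hb, hta, htb, one_mul]⟩
       inv_mem' := by
         rintro a ⟨ha, hta⟩
         refine ⟨B.inv_mem ha, ?_⟩
         have h3 := F2 a ha a⁻¹ (B.inv_mem ha)
         rw [mul_inv_cancel, hθ1, hta, one_mul] at h3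
         exact h3.symm }, fun a => Iff.rfl⟩
  refine ⟨C, ?_, ?_, ?_, ?_, ?_⟩
  · intro y hy a ha
    obtain ⟨ha1, ha2⟩ := (hC a).mp ha
    refine (hC _).mpr ⟨hB y hy a ha1, ?_⟩
    rw [F3 y hy a]
    exact (hπ _).mpr (hN y hy _ ((hπ _).mp ha2))
  · intro a ha
    refine (hC a).mpr ⟨hKB (hNK ha), ?_⟩
    rw [F4 a (hNK ha), (hπ a).mpr ha, one_pow]
  · intro a ha
    exact ((hC a).mp ha).1
  · rintro a ⟨ha, hak⟩
    obtain ⟨ha1, ha2⟩ := (hC a).mp ha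
    rw [F4 a hak, ← map_pow] at ha2
    exact cab_mem_of_pow_mem N a hX ((hπ _).mp ha2) (hM a hak)
  · intro b hb
    have ht := F1 b hb
    obtain ⟨u, v, huv⟩ : ∃ u v : ℤ, u * (Nat.card X : ℤ) + v * (M : ℤ) = 1 :=
      Nat.isCoprime_iff_coprime.mpr hX
    have hk : (θ b) ^ u ∈ K := K.zpow_mem ht u
    refine Subgroup.mem_sup.mpr ⟨(θ b) ^ u, hk, b * ((θ b) ^ u)⁻¹,
      (hC _).mpr ⟨B.mul_mem hb (B.inv_mem (hKB hk)), ?_⟩,
      by rw [mul_comm, inv_mul_cancel_right]⟩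
    rw [F2 b hb _ (B.inv_mem (hKB hk)), F4 _ (K.inv_mem hk), map_inv, map_zpow]
    have h3 : π (θ b) ^ (M : ℤ) = 1 := by
      rw [zpow_natCast, ← map_pow]
      exact (hπ _).mpr (hM _ ht)
    have h4 : π (θ b) * ((π (θ b) ^ u)⁻¹) ^ Nat.card X = (π (θ b) ^ (M : ℤ)) ^ v := by
      rw [← zpow_neg, ← zpow_natCast (π (θ b) ^ (-u)) (Nat.card X), ← zpow_mul, ← zpow_mul]
      nth_rewrite 1 [← zpow_one (π (θ b))]
      rw [← zpow_add]
      congr 1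
      linarith
    rw [h4, h3, one_zpow]

end Cfsg.Agent.Lib.Helper5
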