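import Mathlib
import Cfsg.Agent.Lib.Helper21.PGroup

/-!
General lemmas used for `p`-groups with a self-centralizing cyclic normal subgroup:
the power formula in class two, normal subgroups of order `p ^ 2`, and a criterion for a
subgroup to be characteristic.
-/

namespace Cfsg.Agent.Lib.Helper5

/-- Power formula when the commutator of `x` and `y` commutes with both. -/
theorem mul_pow_of_comm_central {G : Type*} [Group G] (x y : G)
    (hx : (y⁻¹ * x⁻¹ * y * x) * x = x * (y⁻¹ * x⁻¹ * y * x))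
    (hy : (y⁻¹ * x⁻¹ * y * x) * y = y * (y⁻¹ * x⁻¹ * y * x)) (k : ℕ) :
    (x * y) ^ k = x ^ k * y ^ k * (y⁻¹ * x⁻¹ * y * x) ^ (∑ i ∈ Finset.range k, i) := by
  obtain ⟨c, hc⟩ : ∃ c, c = y⁻¹ * x⁻¹ * y * x := ⟨_, rfl⟩
  rw [← hc] at hx hy ⊢
  have hyx : y * x = x * y * c := by rw [hc]; group
  have hcx : Commute c x := hx
  have hcy : Commute c y := hy
  have h1 : ∀ j : ℕ, y ^ j * x = x * y ^ j * c ^ j := by
    intro j
    induction j with
    | zero => simp
    | succ j ih =>
      obtain ⟨Y, hY⟩ : ∃ Y, Y = y ^ j := ⟨_, rfl⟩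
      obtain ⟨C, hC⟩ : ∃ C, C = c ^ j := ⟨_, rfl⟩
      have e1 : c * Y = Y * c := by rw [hY]; exact (hcy.pow_right j).eq
      rw [pow_succ', pow_succ', ← hY, ← hC]
      rw [← hY, ← hC] at ih
      calc y * Y * x = y * (Y * x) := by group
        _ = y * (x * Y * C) := by rw [ih]
        _ = (y * x) * Y * C := by group
        _ = x * y * c * Y * C := by rw [hyx]
        _ = x * y * (c * Y) * C := by group
        _ = x * y * (Y * c) * C := by rw [e1]
        _ = x * (y * Y) * (c * C) := by group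
  induction k with
  | zero => simp
  | succ k ih =>
    have hsum : ∑ i ∈ Finset.range (k + 1), i = (∑ i ∈ Finset.range k, i) + k :=
      Finset.sum_range_succ _ _
    rw [hsum, pow_add c, pow_succ (x * y), ih, pow_succ x, pow_succ y]
    obtain ⟨X, hX⟩ : ∃ X, X = x ^ k := ⟨_, rfl⟩
    obtain ⟨Y, hY⟩ : ∃ Y, Y = y ^ k := ⟨_, rfl⟩
    obtain ⟨C, hC⟩ : ∃ C, C = c ^ k := ⟨_, rfl⟩
    obtain ⟨S, hS⟩ : ∃ S, S = c ^ (∑ i ∈ Finset.range k, i) := ⟨_, rfl⟩
    have e1 : S * x = x * S := by rw [hS]; exact (hcx.pow_left _).eq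
    have e2 : S * y = y * S := by rw [hS]; exact (hcy.pow_left _).eq
    have e3 : C * y = y * C := by rw [hC]; exact (hcy.pow_left _).eq
    have e4 : Y * x = x * Y * C := by rw [hY, hC]; exact h1 k
    rw [← hX, ← hY, ← hC, ← hS]
    calc X * Y * S * (x * y) = X * Y * (S * x) * y := by group
      _ = X * Y * (x * S) * y := by rw [e1]
      _ = X * (Y * x) * (S * y) := by group
      _ = X * (x * Y * C) * (y * S) := by rw [e4, e2]
      _ = X * x * Y * (C * y) * S := by group
      _ = X * x * Y * (y * C) * S := by rw [e3]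
      _ = X * x * (Y * y) * (S * C) := by
          have e5 : C * S = S * C := by rw [hC, hS, ← pow_add, ← pow_add, add_comm]
          calc X * x * Y * (y * C) * S = X * x * (Y * y) * (C * S) := by group
            _ = X * x * (Y * y) * (S * C) := by rw [e5]

/-- For an odd prime `p`, the `p`-th power map is multiplicative on two elements whose
commutator commutes with both and has order dividing `p`. -/
theorem mul_pow_prime_of_comm_central {G : Type*} [Group G] {p : ℕ} (hp : p.Prime) (hodd : p ≠ 2)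
    (x y : G)
    (hx : (y⁻¹ * x⁻¹ * y * x) * x = x * (y⁻¹ * x⁻¹ * y * x))
    (hy : (y⁻¹ * x⁻¹ * y * x) * y = y * (y⁻¹ * x⁻¹ * y * x))
    (hc : (y⁻¹ * x⁻¹ * y * x) ^ p = 1) : (x * y) ^ p = x ^ p * y ^ p := by
  rw [mul_pow_of_comm_central x y hx hy p]
  have h2 : p ∣ ∑ i ∈ Finset.range p, i := by
    have h := Finset.sum_range_id_mul_two p
    have hcop : Nat.Coprime p 2 := (Nat.coprime_primes hp Nat.prime_two).mpr hodd
    exact hcop.dvd_of_dvd_mul_right (by rw [h]; exact dvd_mul_right p _)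
  obtain ⟨m, hm⟩ := h2
  rw [hm, pow_mul, hc, one_pow, mul_one]

/-- In a `p`-group, `p`-th powers centralize every normal subgroup of order `p ^ 2` and
exponent `p`. -/
theorem pow_commute_of_normal_sq {G : Type*} [Group G] [Finite G] {p : ℕ} [Fact p.Prime]
    (hG : IsPGroup p G) (E : Subgroup G) [E.Normal] (hcard : Nat.card E = p ^ 2)
    (hexp : ∀ x ∈ E, x ^ p = 1) (a e : G) (he : e ∈ E) : a ^ p * e = e * a ^ p := by
  have hp : p.Prime := Fact.out
  have hEne : E ≠ ⊥ := by
    rintro rfl
    rw [Subgroup.card_bot] at hcard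
    have : 1 < p ^ 2 := Nat.one_lt_pow (by norm_num) hp.one_lt
    omega
  obtain ⟨z, hzE, hzc, hz1⟩ := Cfsg.Agent.Lib.Helper21.exists_mem_center_of_normal hG E hEne
  have hzp : z ^ p = 1 := hexp z hzE
  have hzo : orderOf z = p := orderOf_eq_prime hzp hz1
  have hzcomm : ∀ g : G, Commute g z := fun g => Subgroup.mem_center_iff.mp hzc g
  have hZn : (Subgroup.zpowers z).Normal := by
    constructor
    intro x hx g
    obtain ⟨i, rfl⟩ := Subgroup.mem_zpowers_iff.mp hx
    have h2 : Commute g (z ^ i) := (hzcomm g).zpow_right i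
    have : g * z ^ i * g⁻¹ = z ^ i := by rw [h2.eq]; group
    rw [this]; exact Subgroup.zpow_mem _ (Subgroup.mem_zpowers z) i
  obtain ⟨N, hNdef⟩ : ∃ N : Subgroup (G ⧸ Subgroup.zpowers z),
      N = E.map (QuotientGroup.mk' (Subgroup.zpowers z)) := ⟨_, rfl⟩
  have hNn : N.Normal := by
    rw [hNdef]
    exact Subgroup.Normal.map inferInstance _ (QuotientGroup.mk'_surjective _)
  have hNcard : Nat.card N = p := by
    have h1 : (N.comap (QuotientGroup.mk' (Subgroup.zpowers z))) = E := by
      rw [hNdef, Subgroup.comap_map_eq, QuotientGroup.ker_mk']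
      exact sup_eq_left.mpr (Subgroup.zpowers_le.mpr hzE)
    have h2 : N.index = E.index := by
      rw [← h1]
      exact (Subgroup.index_comap_of_surjective N (QuotientGroup.mk'_surjective _)).symm
    have h3 := Subgroup.card_mul_index N
    have h4 := Subgroup.card_mul_index E
    have h5 := Subgroup.card_eq_card_quotient_mul_card_subgroup (Subgroup.zpowers z)
    rw [Nat.card_zpowers, hzo] at h5
    rw [h2] at h3
    rw [hcard] at h4
    have hidx : 0 < E.index := Nat.pos_of_ne_zero Subgroup.index_ne_zero_of_finite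
    have h7 : Nat.card N * (E.index * p) = p * (E.index * p) := by
      calc Nat.card N * (E.index * p) = (Nat.card N * E.index) * p := by ring
        _ = Nat.card (G ⧸ Subgroup.zpowers z) * p := by rw [h3]
        _ = Nat.card G := h5.symm
        _ = p ^ 2 * E.index := h4.symm
        _ = p * (E.index * p) := by ring
    exact Nat.eq_of_mul_eq_mul_right (Nat.mul_pos hidx hp.pos) h7
  have hQ : IsPGroup p (G ⧸ Subgroup.zpowers z) := hG.to_quotient _
  have hcen := Cfsg.Agent.Lib.Helper21.le_center_of_normal_of_card_eq_prime hQ N hNcard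
  have hmem : (QuotientGroup.mk' (Subgroup.zpowers z)) e ∈ N := by
    rw [hNdef]; exact Subgroup.mem_map_of_mem _ he
  have hcomm := Subgroup.mem_center_iff.mp (hcen hmem) ((QuotientGroup.mk' (Subgroup.zpowers z)) a)
  have hker : (a * e)⁻¹ * (e * a) ∈ Subgroup.zpowers z := by
    rw [← QuotientGroup.eq]
    exact hcomm
  obtain ⟨k, hk⟩ := Subgroup.mem_zpowers_iff.mp hker
  have hzk : Commute (z ^ k) a := ((hzcomm a).zpow_right k).symm
  have he' : e * z ^ k = z ^ k * e := ((hzcomm e).zpow_right k).eq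
  have hconj : e * a * e⁻¹ = z ^ k * a := by
    calc e * a * e⁻¹ = (a * e) * ((a * e)⁻¹ * (e * a)) * e⁻¹ := by group
      _ = a * e * z ^ k * e⁻¹ := by rw [hk]
      _ = a * (e * z ^ k) * e⁻¹ := by group
      _ = a * (z ^ k * e) * e⁻¹ := by rw [he']
      _ = a * z ^ k := by group
      _ = z ^ k * a := hzk.eq.symm
  have h8 : e * a ^ p * e⁻¹ = a ^ p := by
    rw [← conj_pow, hconj, hzk.mul_pow, ← zpow_natCast (z ^ k), ← zpow_mul, mul_comm, zpow_mul,
      zpow_natCast, hzp, one_zpow, one_mul]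
  calc a ^ p * e = e * a ^ p * e⁻¹ * e := by rw [h8]
    _ = e * a ^ p := by group

/-- A normal subgroup of order `p ^ 2` and exponent `p` containing every other such subgroup is
characteristic. -/
theorem characteristic_of_unique_sq {G : Type*} [Group G] [Finite G] {p : ℕ} (E : Subgroup G)
    (hEn : E.Normal) (hEcard : Nat.card E = p ^ 2) (hEexp : ∀ x ∈ E, x ^ p = 1)
    (huniq : ∀ E' : Subgroup G, E'.Normal → Nat.card E' = p ^ 2 → (∀ x ∈ E', x ^ p = 1) → E' ≤ E) :
    E.Characteristic := by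
  rw [Subgroup.characteristic_iff_map_le]
  intro φ
  apply huniq
  · exact Subgroup.Normal.map hEn _ φ.surjective
  · rw [← hEcard]
    exact (Nat.card_congr (E.equivMapOfInjective φ.toMonoidHom φ.injective).toEquiv).symm
  · rintro x ⟨y, hy, rfl⟩
    rw [← map_pow, hEexp y hy, map_one]

/-- In a `p`-group, an element outside a subgroup `U` has a power outside `U` whose `p`-th power
lies in `U`. -/
theorem exists_pow_not_mem {G : Type*} [Group G] {p : ℕ} (hG : IsPGroup p G) (U : Subgroup G)
    (x : G) (hx : x ∉ U) : ∃ b ∈ Subgroup.zpowers x, b ∉ U ∧ b ^ p ∈ U := by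
  have key : ∀ k : ℕ, ∀ y ∈ Subgroup.zpowers x, y ∉ U → y ^ (p ^ k) = 1 →
      ∃ b ∈ Subgroup.zpowers x, b ∉ U ∧ b ^ p ∈ U := by
    intro k
    induction k with
    | zero =>
      intro y _ hy h
      rw [pow_zero, pow_one] at h
      exact absurd (h ▸ U.one_mem) hy
    | succ k ih =>
      intro y hyx hy h
      by_cases hyp : y ^ p ∈ U
      · exact ⟨y, hyx, hy, hyp⟩
      · exact ih (y ^ p) (Subgroup.pow_mem _ hyx p) hyp (by rw [← pow_mul, ← pow_succ']; exact h)
  obtain ⟨k, hk⟩ := hG x
  exact key k x (Subgroup.mem_zpowers x) hx hk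

end Cfsg.Agent.Lib.Helper5
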