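import Mathlib

set_option autoImplicit false

namespace Cfsg.Agent.Lib.Helper5

/-- Pure counting: orbit sizes `q ω ≥ 2` dividing `c` (as `q ω * s ω = c`), total `n`,
`m * c ≤ n + (c - 1)` and `n ≡ 1 (mod c)` are contradictory for `c ≥ 2`. -/
theorem orbit_count_aux {Ω : Type*} [Fintype Ω] (c n : ℕ) (q s : Ω → ℕ) (hc : 2 ≤ c)
    (hq : ∀ ω, q ω * s ω = c) (hq2 : ∀ ω, 2 ≤ q ω)
    (hC : n = ∑ ω, q ω) (hB : Fintype.card Ω * c ≤ n + (c - 1))
    (h2 : n ≡ 1 [MOD c]) : False := by
  classical
  have hspos : ∀ ω, 0 < s ω := by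
    intro ω
    rcases Nat.eq_zero_or_pos (s ω) with h | h
    · have := hq ω
      rw [h, mul_zero] at this
      omega
    · exact h
  have hqle : ∀ ω, q ω ≤ c := by
    intro ω
    have h3 := hq ω
    have h4 := hspos ω
    calc q ω = q ω * 1 := (mul_one _).symm
      _ ≤ q ω * s ω := Nat.mul_le_mul_left _ h4
      _ = c := h3
  have hbig : ∀ ω, c - q ω ≠ 0 → c ≤ 2 * (c - q ω) := by
    intro ω hne
    have h3 := hq ω
    have h4 := hspos ω
    have h5 : s ω ≠ 1 := by
      intro h1'
      rw [h1', mul_one] at h3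
      omega
    have h6 : 2 ≤ s ω := by omega
    have h7 : 2 * q ω ≤ c := by
      calc 2 * q ω ≤ s ω * q ω := Nat.mul_le_mul_right _ h6
        _ = c := by rw [mul_comm]; exact h3
    omega
  have hT : ∑ ω, (c - q ω) + n = Fintype.card Ω * c := by
    rw [hC, ← Finset.sum_add_distrib]
    have h3 : ∀ ω, (c - q ω) + q ω = c := fun ω => Nat.sub_add_cancel (hqle ω)
    simp only [h3]
    rw [Finset.sum_const, Finset.card_univ, smul_eq_mul]
  generalize hTdef : ∑ ω, (c - q ω) = T at hT
  have hTle : T ≤ c - 1 := by omega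
  have hTge : c ≤ T + 1 := by
    have h3 : T + n ≡ T + 1 [MOD c] := Nat.ModEq.add_left T h2
    rw [hT] at h3
    have h4 : c ∣ T + 1 := by
      have h5 : (Fintype.card Ω * c) % c = 0 := Nat.mul_mod_left _ _
      unfold Nat.ModEq at h3
      rw [h5] at h3
      exact Nat.dvd_of_mod_eq_zero h3.symm
    exact Nat.le_of_dvd (Nat.succ_pos T) h4
  have hTne : T ≠ 0 := by omega
  rw [← hTdef] at hTne
  obtain ⟨ω0, -, hω0⟩ := Finset.exists_ne_zero_of_sum_ne_zero hTne
  have hsplit : (c - q ω0) + ∑ ω ∈ Finset.univ.erase ω0, (c - q ω) = T := by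
    rw [← hTdef]
    exact Finset.add_sum_erase Finset.univ (fun ω : Ω => c - q ω) (Finset.mem_univ ω0)
  have hrest : ∑ ω ∈ Finset.univ.erase ω0, (c - q ω) ≠ 0 := by
    have := hq2 ω0
    have := hqle ω0
    omega
  obtain ⟨ω1, hω1mem, hω1⟩ := Finset.exists_ne_zero_of_sum_ne_zero hrest
  have hsingle : c - q ω1 ≤ ∑ ω ∈ Finset.univ.erase ω0, (c - q ω) :=
    Finset.single_le_sum (f := fun ω : Ω => c - q ω) (fun _ _ => Nat.zero_le _) hω1mem
  have hb0 := hbig ω0 hω0
  have hb1 := hbig ω1 hω1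
  omega

/-- A finite group acting on a finite nonempty set, such that every nonidentity element has at
most one fixed point and the number of points is `1` modulo the group order, has a global
fixed point. -/
theorem exists_fixed_point_of_card_modEq_one {L X : Type*} [Group L] [Finite L] [Finite X]
    [Nonempty X] [MulAction L X]
    (h1 : ∀ ℓ : L, ℓ ≠ 1 → ∀ x y : X, ℓ • x = x → ℓ • y = y → x = y)
    (h2 : Nat.card X ≡ 1 [MOD Nat.card L]) : ∃ x : X, ∀ ℓ : L, ℓ • x = x := by
  classical
  have := Fintype.ofFinite L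
  have := Fintype.ofFinite X
  have := Fintype.ofFinite (MulAction.orbitRel.Quotient L X)
  by_cases hL : Nat.card L = 1
  · obtain ⟨x⟩ := ‹Nonempty X›
    refine ⟨x, fun ℓ => ?_⟩
    have hsub : Subsingleton L := (Nat.card_eq_one_iff_unique.mp hL).1
    rw [Subsingleton.elim ℓ 1, one_smul]
  have hL2 : 2 ≤ Nat.card L := by
    have := Nat.card_pos (α := L)
    omega
  have hB := MulAction.sum_card_fixedBy_eq_card_orbits_mul_card_group L X
  have hC := MulAction.card_eq_sum_card_group_div_card_stabilizer L X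
  simp only [← Nat.card_eq_fintype_card] at hB hC
  have hfix : ∀ ℓ : L, ℓ ≠ 1 → Nat.card (MulAction.fixedBy X ℓ) ≤ 1 := by
    intro ℓ hℓ
    rw [Finite.card_le_one_iff_subsingleton]
    constructor
    rintro ⟨x, hx⟩ ⟨y, hy⟩
    exact Subtype.ext (h1 ℓ hℓ x y hx hy)
  have hfix1 : Nat.card (MulAction.fixedBy X (1 : L)) = Nat.card X := by
    apply Nat.card_congr
    exact (Equiv.subtypeUnivEquiv (fun x => by simp))
  have hsum : ∑ ℓ : L, Nat.card (MulAction.fixedBy X ℓ) ≤ Nat.card X + (Nat.card L - 1) := by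
    rw [← Finset.add_sum_erase Finset.univ _ (Finset.mem_univ (1 : L)), hfix1]
    apply Nat.add_le_add_left
    calc ∑ ℓ ∈ Finset.univ.erase (1 : L), Nat.card (MulAction.fixedBy X ℓ)
        ≤ ∑ ℓ ∈ Finset.univ.erase (1 : L), 1 :=
          Finset.sum_le_sum (fun ℓ hℓ => hfix ℓ (Finset.ne_of_mem_erase hℓ))
      _ = Nat.card L - 1 := by
          simp [Finset.card_erase_of_mem, Finset.card_univ, Nat.card_eq_fintype_card]
  rw [hB] at hsum
  by_contra hcon
  push Not at hcon
  have hq : ∀ ω : MulAction.orbitRel.Quotient L X,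
      (Nat.card L / Nat.card (MulAction.stabilizer L ω.out)) *
        Nat.card (MulAction.stabilizer L ω.out) = Nat.card L := fun ω =>
    Nat.div_mul_cancel (Subgroup.card_subgroup_dvd_card _)
  have hq1 : ∀ ω : MulAction.orbitRel.Quotient L X,
      Nat.card L / Nat.card (MulAction.stabilizer L ω.out) ≠ 1 := by
    intro ω h
    have h3 := hq ω
    rw [h, one_mul] at h3
    have htop : MulAction.stabilizer L ω.out = ⊤ := Subgroup.eq_top_of_card_eq _ h3
    obtain ⟨ℓ, hℓ⟩ := hcon ω.out
    apply hℓ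
    have : ℓ ∈ MulAction.stabilizer L ω.out := by rw [htop]; trivial
    exact this
  have hq2 : ∀ ω : MulAction.orbitRel.Quotient L X,
      2 ≤ Nat.card L / Nat.card (MulAction.stabilizer L ω.out) := by
    intro ω
    have h3 := hq ω
    have h4 := hq1 ω
    generalize Nat.card L / Nat.card (MulAction.stabilizer L ω.out) = q at h3 h4 ⊢
    have h5 : q ≠ 0 := by
      intro h0
      rw [h0, zero_mul] at h3
      omega
    omega
  have hcardΩ : Fintype.card (MulAction.orbitRel.Quotient L X) =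
      Nat.card (Quotient (MulAction.orbitRel L X)) := Nat.card_eq_fintype_card.symm
  exact orbit_count_aux (Nat.card L) (Nat.card X)
    (fun ω : MulAction.orbitRel.Quotient L X =>
      Nat.card L / Nat.card (MulAction.stabilizer L ω.out))
    (fun ω : MulAction.orbitRel.Quotient L X => Nat.card (MulAction.stabilizer L ω.out))
    hL2 hq hq2 hC (by rw [hcardΩ]; exact hsum) h2

end Cfsg.Agent.Lib.Helper5
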