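import Cfsg.Agent.Lib.Helper1.FrobPC

set_option autoImplicit false

namespace Cfsg.Agent.Lib.Helper5

universe u

/-- The conjugation action of a subgroup `Z` of the normalizer of `Q` on `Q`. -/
def conjActOn {G : Type u} [Group G] (Q Z : Subgroup G)
    (hZ : Z ≤ Subgroup.normalizer (Q : Set G)) : MulAction Z Q where
  smul z x := ⟨(z : G) * x * (z : G)⁻¹, (Subgroup.mem_normalizer_iff.mp (hZ z.2) x).mp x.2⟩
  one_smul x := by
    apply Subtype.ext
    show ((1 : Z) : G) * x * ((1 : Z) : G)⁻¹ = x
    simp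
  mul_smul a b x := by
    apply Subtype.ext
    show ((a * b : Z) : G) * x * ((a * b : Z) : G)⁻¹ = (a : G) * ((b : G) * x * (b : G)⁻¹) * (a : G)⁻¹
    simp [mul_assoc]

/-- Fixed-point congruence for an `r`-group `Z` normalizing `Q`. -/
theorem card_modEq_card_inf_centralizer {G : Type u} [Group G] [Finite G] (Q Z : Subgroup G)
    (hZ : Z ≤ Subgroup.normalizer (Q : Set G)) (r : ℕ) [Fact r.Prime] (hZr : IsPGroup r Z) :
    Nat.card Q ≡ Nat.card (Q ⊓ Subgroup.centralizer (Z : Set G) : Subgroup G) [MOD r] := by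
  classical
  letI : MulAction Z Q := conjActOn Q Z hZ
  have h1 := hZr.card_modEq_card_fixedPoints Q
  have hsmul : ∀ (z : Z) (x : Q), ((z • x : Q) : G) = (z : G) * x * (z : G)⁻¹ := fun z x => rfl
  have h2 : Nat.card (MulAction.fixedPoints Z Q) =
      Nat.card (Q ⊓ Subgroup.centralizer (Z : Set G) : Subgroup G) := by
    apply Nat.card_congr
    refine ⟨fun x => ⟨(x : Q), Subgroup.mem_inf.mpr ⟨(x : Q).2, ?_⟩⟩,
      fun y => ⟨⟨(y : G), (Subgroup.mem_inf.mp y.2).1⟩, ?_⟩, ?_, ?_⟩
    · rw [Subgroup.mem_centralizer_iff]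
      intro z hz
      have h3 := congrArg Subtype.val (x.2 ⟨z, hz⟩)
      rw [hsmul] at h3
      have h4 : z * ((x : Q) : G) * z⁻¹ = ((x : Q) : G) := h3
      calc z * ((x : Q) : G) = z * ((x : Q) : G) * z⁻¹ * z := by group
        _ = ((x : Q) : G) * z := by rw [h4]
    · intro z
      apply Subtype.ext
      rw [hsmul]
      have h3 := Subgroup.mem_centralizer_iff.mp (Subgroup.mem_inf.mp y.2).2 (z : G) z.2
      show (z : G) * (y : G) * (z : G)⁻¹ = (y : G)
      rw [h3]
      group
    · intro x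
      rfl
    · intro y
      rfl
  rw [← h2]
  exact h1

/-- To verify that odd-order (more generally `p'`-) elements of a normalizer centralize, it
suffices to treat elements of prime-power order. -/
theorem mem_centralizer_of_prime_power {G : Type u} [Group G] [Finite G] (Q : Subgroup G) (p : ℕ)
    (h : ∀ x ∈ Subgroup.normalizer (Q : Set G), ∀ r k : ℕ, r.Prime → r ≠ p → orderOf x = r ^ k →
      x ∈ Subgroup.centralizer (Q : Set G))
    (g : G) (hg : g ∈ Subgroup.normalizer (Q : Set G)) (hcop : Nat.Coprime (orderOf g) p) :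
    g ∈ Subgroup.centralizer (Q : Set G) := by
  classical
  set Z : Subgroup G := Subgroup.zpowers g with hZ
  have hZN : Z ≤ Subgroup.normalizer (Q : Set G) := by
    rw [hZ, Subgroup.zpowers_le]; exact hg
  set Z₀ : Subgroup Z := (Subgroup.centralizer (Q : Set G)).subgroupOf Z with hZ₀
  have hcardZ : Nat.card Z = orderOf g := Nat.card_zpowers g
  have hdvd : Nat.card Z ∣ Nat.card Z₀ := by
    rw [← Nat.factorization_prime_le_iff_dvd Nat.card_pos.ne' Nat.card_pos.ne']
    intro r hr
    haveI : Fact r.Prime := ⟨hr⟩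
    obtain ⟨R⟩ := (inferInstance : Nonempty (Sylow r Z))
    have hRle : (R : Subgroup Z) ≤ Z₀ := by
      intro x hx
      rw [hZ₀, Subgroup.mem_subgroupOf]
      obtain ⟨k, hk⟩ := (IsPGroup.iff_orderOf.mp R.isPGroup') ⟨x, hx⟩
      have hk' : orderOf (x : G) = r ^ k := by
        rw [Subgroup.orderOf_coe]
        have : orderOf (⟨x, hx⟩ : (R : Subgroup Z)) = orderOf x := Subgroup.orderOf_mk x hx
        rw [← this]
        exact hk
      by_cases hk0 : k = 0
      · rw [hk0, pow_zero, orderOf_eq_one_iff] at hk'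
        rw [hk']
        exact Subgroup.one_mem _
      · have hrp : r ≠ p := by
          rintro rfl
          have h1 : r ∣ orderOf (x : G) := by
            rw [hk']; exact dvd_pow_self r hk0
          have h2 : orderOf (x : G) ∣ orderOf g := by
            rw [← hcardZ, Subgroup.orderOf_coe]
            exact orderOf_dvd_natCard x
          have h3 : r ∣ Nat.gcd (orderOf g) r := Nat.dvd_gcd (h1.trans h2) (dvd_refl r)
          rw [hcop] at h3
          exact hr.one_lt.ne' (Nat.dvd_one.mp h3)
        exact h (x : G) (hZN x.2) r k hr hrp hk'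
    have h1 : Nat.card (R : Subgroup Z) ∣ Nat.card Z₀ := Subgroup.card_dvd_of_le hRle
    rw [R.card_eq_multiplicity] at h1
    exact (hr.pow_dvd_iff_le_factorization Nat.card_pos.ne').mp h1
  have htop : Z₀ = ⊤ := by
    apply Subgroup.eq_top_of_card_eq
    exact Nat.dvd_antisymm (Subgroup.card_subgroup_dvd_card Z₀) hdvd
  have hgZ : (⟨g, Subgroup.mem_zpowers g⟩ : Z) ∈ Z₀ := by rw [htop]; exact Subgroup.mem_top _
  exact Subgroup.mem_subgroupOf.mp hgZ

end Cfsg.Agent.Lib.Helper5
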