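import Mathlib

set_option autoImplicit false

namespace Cfsg.Agent.Lib.Helper5

open scoped commutatorElement

variable {G : Type*} [Group G]

theorem card_mul_card_le_sup_inf [Finite G] (H K : Subgroup G) :
    Nat.card H * Nat.card K ≤ Nat.card (H ⊔ K : Subgroup G) * Nat.card (H ⊓ K : Subgroup G) := by
  have h1 : Nat.card (H ⊓ K : Subgroup G) * (H ⊓ K).relIndex H = Nat.card H := by
    rw [← Subgroup.relIndex_bot_left, ← Subgroup.relIndex_bot_left,
      Subgroup.relIndex_mul_relIndex _ _ _ bot_le inf_le_left]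
  have h2 : Nat.card K * K.relIndex (H ⊔ K) = Nat.card (H ⊔ K : Subgroup G) := by
    rw [← Subgroup.relIndex_bot_left, ← Subgroup.relIndex_bot_left,
      Subgroup.relIndex_mul_relIndex _ _ _ bot_le le_sup_right]
  have h3 : (H ⊓ K).relIndex H = K.relIndex H := Subgroup.inf_relIndex_left H K
  have h4 : K.relIndex H ≤ K.relIndex (H ⊔ K) :=
    Subgroup.relIndex_le_of_le_right le_sup_left Subgroup.index_ne_zero_of_finite
  calc Nat.card H * Nat.card K
      = Nat.card (H ⊓ K : Subgroup G) * K.relIndex H * Nat.card K := by rw [← h1, h3]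
    _ ≤ Nat.card (H ⊓ K : Subgroup G) * K.relIndex (H ⊔ K) * Nat.card K := by gcongr
    _ = Nat.card (H ⊔ K : Subgroup G) * Nat.card (H ⊓ K : Subgroup G) := by rw [← h2]; ring

theorem centralizer_sup_eq (H K : Subgroup G) :
    Subgroup.centralizer ((H ⊔ K : Subgroup G) : Set G) =
      Subgroup.centralizer (H : Set G) ⊓ Subgroup.centralizer (K : Set G) := by
  apply le_antisymm
  · exact le_inf (Subgroup.centralizer_le (by exact_mod_cast (le_sup_left : H ≤ H ⊔ K)))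
      (Subgroup.centralizer_le (by exact_mod_cast (le_sup_right : K ≤ H ⊔ K)))
  · intro x hx
    obtain ⟨h1, h2⟩ := Subgroup.mem_inf.mp hx
    have h3 : H ⊔ K ≤ Subgroup.centralizer ({x} : Set G) := by
      apply sup_le
      · intro y hy
        rw [Subgroup.mem_centralizer_singleton_iff]
        exact Subgroup.mem_centralizer_iff.mp h1 y hy
      · intro y hy
        rw [Subgroup.mem_centralizer_singleton_iff]
        exact Subgroup.mem_centralizer_iff.mp h2 y hy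
    rw [Subgroup.mem_centralizer_iff]
    intro y hy
    have h4 := h3 hy
    rw [Subgroup.mem_centralizer_singleton_iff] at h4
    exact h4

theorem centralizer_union_eq (S T : Set G) :
    Subgroup.centralizer (S ∪ T) = Subgroup.centralizer S ⊓ Subgroup.centralizer T := by
  ext x
  simp only [Subgroup.mem_centralizer_iff, Subgroup.mem_inf, Set.mem_union, or_imp, forall_and]

/-- Intersections of "best" subgroups are best, and fixed points add up. -/
theorem best_inf [Finite G] (V A : Subgroup G)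
    (hbest : ∀ B : Subgroup G, B ≤ A →
      Nat.card B * Nat.card ↥(V ⊓ Subgroup.centralizer (B : Set G)) ≤
      Nat.card A * Nat.card ↥(V ⊓ Subgroup.centralizer (A : Set G)))
    (B₁ B₂ : Subgroup G) (h₁ : B₁ ≤ A) (h₂ : B₂ ≤ A)
    (e₁ : Nat.card B₁ * Nat.card ↥(V ⊓ Subgroup.centralizer (B₁ : Set G)) =
      Nat.card A * Nat.card ↥(V ⊓ Subgroup.centralizer (A : Set G)))
    (e₂ : Nat.card B₂ * Nat.card ↥(V ⊓ Subgroup.centralizer (B₂ : Set G)) =
      Nat.card A * Nat.card ↥(V ⊓ Subgroup.centralizer (A : Set G))) :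
    Nat.card (B₁ ⊓ B₂ : Subgroup G) *
        Nat.card ↥(V ⊓ Subgroup.centralizer ((B₁ ⊓ B₂ : Subgroup G) : Set G)) =
      Nat.card A * Nat.card ↥(V ⊓ Subgroup.centralizer (A : Set G)) ∧
    V ⊓ Subgroup.centralizer ((B₁ ⊓ B₂ : Subgroup G) : Set G) =
      (V ⊓ Subgroup.centralizer (B₁ : Set G)) ⊔ (V ⊓ Subgroup.centralizer (B₂ : Set G)) := by
  have hS := hbest (B₁ ⊔ B₂) (sup_le h₁ h₂)
  have hI := hbest (B₁ ⊓ B₂) (inf_le_left.trans h₁)
  have hCS : V ⊓ Subgroup.centralizer ((B₁ ⊔ B₂ : Subgroup G) : Set G) =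
      (V ⊓ Subgroup.centralizer (B₁ : Set G)) ⊓ (V ⊓ Subgroup.centralizer (B₂ : Set G)) := by
    rw [centralizer_sup_eq]
    exact inf_inf_distrib_left _ _ _
  rw [hCS] at hS
  have hJ : (V ⊓ Subgroup.centralizer (B₁ : Set G)) ⊔ (V ⊓ Subgroup.centralizer (B₂ : Set G)) ≤
      V ⊓ Subgroup.centralizer ((B₁ ⊓ B₂ : Subgroup G) : Set G) :=
    sup_le
      (inf_le_inf_left _ (Subgroup.centralizer_le (by exact_mod_cast (inf_le_left : B₁ ⊓ B₂ ≤ B₁))))
      (inf_le_inf_left _ (Subgroup.centralizer_le (by exact_mod_cast (inf_le_right : B₁ ⊓ B₂ ≤ B₂))))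
  have hJc := Subgroup.card_le_of_le hJ
  have hfin : Nat.card ↥((V ⊓ Subgroup.centralizer (B₁ : Set G)) ⊔
      (V ⊓ Subgroup.centralizer (B₂ : Set G)) : Subgroup G) =
      Nat.card ↥(V ⊓ Subgroup.centralizer ((B₁ ⊓ B₂ : Subgroup G) : Set G)) →
      V ⊓ Subgroup.centralizer ((B₁ ⊓ B₂ : Subgroup G) : Set G) =
      (V ⊓ Subgroup.centralizer (B₁ : Set G)) ⊔ (V ⊓ Subgroup.centralizer (B₂ : Set G)) :=
    fun h => (Subgroup.eq_of_le_of_card_ge hJ h.ge).symm
  have ha := card_mul_card_le_sup_inf B₁ B₂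
  have hd := card_mul_card_le_sup_inf (V ⊓ Subgroup.centralizer (B₁ : Set G))
    (V ⊓ Subgroup.centralizer (B₂ : Set G))
  generalize Nat.card A * Nat.card ↥(V ⊓ Subgroup.centralizer (A : Set G)) = m at *
  generalize Nat.card ↥(V ⊓ Subgroup.centralizer ((B₁ ⊓ B₂ : Subgroup G) : Set G)) = cI at *
  generalize Nat.card ↥((V ⊓ Subgroup.centralizer (B₁ : Set G)) ⊔
    (V ⊓ Subgroup.centralizer (B₂ : Set G)) : Subgroup G) = cJ at *
  generalize Nat.card ↥((V ⊓ Subgroup.centralizer (B₁ : Set G)) ⊓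
    (V ⊓ Subgroup.centralizer (B₂ : Set G)) : Subgroup G) = cS at *
  generalize hc1 : Nat.card ↥(V ⊓ Subgroup.centralizer (B₁ : Set G)) = c1 at *
  generalize hc2 : Nat.card ↥(V ⊓ Subgroup.centralizer (B₂ : Set G)) = c2 at *
  have hIpos : 0 < Nat.card (B₁ ⊓ B₂ : Subgroup G) := Nat.card_pos
  generalize Nat.card (B₁ ⊓ B₂ : Subgroup G) = nI at *
  generalize Nat.card (B₁ ⊔ B₂ : Subgroup G) = nS at *
  have hb1 : 0 < Nat.card B₁ := Nat.card_pos
  have hc1pos : 0 < c1 := by rw [← hc1]; exact Nat.card_pos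
  generalize Nat.card B₁ = n1 at *
  generalize Nat.card B₂ = n2 at *
  have hmpos : 0 < m := by rw [← e₁]; exact Nat.mul_pos hb1 hc1pos
  have key : m * m ≤ (nS * cS) * (nI * cJ) := by
    calc m * m = (n1 * c1) * (n2 * c2) := by rw [e₁, e₂]
      _ = (n1 * n2) * (c1 * c2) := by ring
      _ ≤ (nS * nI) * (cJ * cS) := Nat.mul_le_mul ha hd
      _ = (nS * cS) * (nI * cJ) := by ring
  have hmj : m ≤ nI * cJ := by
    have h1 : m * m ≤ m * (nI * cJ) := le_trans key (Nat.mul_le_mul_right _ hS)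
    exact Nat.le_of_mul_le_mul_left h1 hmpos
  have hji : nI * cJ ≤ nI * cI := Nat.mul_le_mul_left _ hJc
  have hi : nI * cI = m := le_antisymm hI (hmj.trans hji)
  have hj : nI * cJ = nI * cI := le_antisymm hji (hi ▸ hmj)
  have hcJ : cJ = cI := Nat.eq_of_mul_eq_mul_left hIpos hj
  exact ⟨hi, hfin hcJ⟩

/-- The counting step of the replacement theorem for a single element `u`. -/
theorem offender_single_step [Finite G] (V A : Subgroup G)
    (hV : ∀ x ∈ V, ∀ y ∈ V, x * y = y * x)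
    (hAV : A ≤ Subgroup.normalizer (V : Set G))
    (hab : ⁅A, A⁆ ≤ Subgroup.centralizer (V : Set G))
    (u : G) (hu : u ∈ V) (T : Set G) (hT : T = {g | ∃ a ∈ A, ⁅u, a⁆ = g}) :
    Nat.card A * Nat.card ↥(V ⊓ Subgroup.centralizer (A : Set G)) ≤
      Nat.card (A ⊓ Subgroup.centralizer T : Subgroup G) *
        Nat.card (Subgroup.closure T ⊔ (V ⊓ Subgroup.centralizer (A : Set G)) : Subgroup G) := by
  have hconjV : ∀ a ∈ A, ∀ v ∈ V, a * v * a⁻¹ ∈ V := by
    intro a ha v hv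
    exact (Subgroup.mem_normalizer_iff.mp (hAV ha) v).mp hv
  have hTV : ∀ a ∈ A, ⁅u, a⁆ ∈ V := by
    intro a ha
    rw [commutatorElement_def]
    have h1 := hconjV a ha u⁻¹ (V.inv_mem hu)
    have e : u * a * u⁻¹ * a⁻¹ = u * (a * u⁻¹ * a⁻¹) := by group
    rw [e]; exact V.mul_mem hu h1
  have hTW : ∀ a ∈ A, ⁅u, a⁆ ∈
      Subgroup.closure T ⊔ (V ⊓ Subgroup.centralizer (A : Set G)) := fun a ha =>
    Subgroup.mem_sup_left (Subgroup.subset_closure (by rw [hT]; exact ⟨a, ha, rfl⟩))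
  have hswap : ∀ c ∈ A, ∀ a ∈ A, ∀ x ∈ V, c * (a * x * a⁻¹) * c⁻¹ = a * (c * x * c⁻¹) * a⁻¹ := by
    intro c hc a ha x hx
    have hk : ⁅c, a⁆ ∈ Subgroup.centralizer (V : Set G) :=
      hab (Subgroup.commutator_mem_commutator hc ha)
    have hR : a * (c * x * c⁻¹) * a⁻¹ ∈ V := hconjV a ha _ (hconjV c hc x hx)
    have h1 := Subgroup.mem_centralizer_iff.mp hk _ hR
    rw [commutatorElement_def] at h1
    calc c * (a * x * a⁻¹) * c⁻¹
        = (c * a * c⁻¹ * a⁻¹) * (a * (c * x * c⁻¹) * a⁻¹) * (c * a * c⁻¹ * a⁻¹)⁻¹ := by group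
      _ = (a * (c * x * c⁻¹) * a⁻¹) * (c * a * c⁻¹ * a⁻¹) * (c * a * c⁻¹ * a⁻¹)⁻¹ := by rw [← h1]
      _ = a * (c * x * c⁻¹) * a⁻¹ := by group
  have comm4 : ∀ P ∈ V, ∀ Q ∈ V, ∀ R ∈ V, ∀ S ∈ V, P * Q⁻¹ = R * S⁻¹ → P * R⁻¹ = Q * S⁻¹ := by
    intro P hP Q hQ R hR S hS h1
    have hSQ : S⁻¹ * Q ∈ V := V.mul_mem (V.inv_mem hS) hQ
    calc P * R⁻¹ = (P * Q⁻¹) * Q * R⁻¹ := by group
      _ = (R * S⁻¹) * Q * R⁻¹ := by rw [h1]
      _ = R * (S⁻¹ * Q) * R⁻¹ := by group
      _ = (S⁻¹ * Q) * R * R⁻¹ := by rw [hV R hR (S⁻¹ * Q) hSQ]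
      _ = S⁻¹ * Q := by group
      _ = Q * S⁻¹ := hV _ (V.inv_mem hS) _ hQ
  have key : ∀ a ∈ A, ∀ a' ∈ A,
      (⁅u, a⁆)⁻¹ * ⁅u, a'⁆ ∈ V ⊓ Subgroup.centralizer (A : Set G) →
      a⁻¹ * a' ∈ A ⊓ Subgroup.centralizer T := by
    intro a ha a' ha' hz
    refine Subgroup.mem_inf.mpr ⟨A.mul_mem (A.inv_mem ha) ha', ?_⟩
    rw [Subgroup.mem_centralizer_iff]
    intro t ht
    rw [hT] at ht
    obtain ⟨c, hc, rfl⟩ := ht
    obtain ⟨hzV, hzA⟩ := Subgroup.mem_inf.mp hz
    have hzc := Subgroup.mem_centralizer_iff.mp hzA c hc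
    have hP : a * u * a⁻¹ ∈ V := hconjV a ha u hu
    have hQ : a' * u * a'⁻¹ ∈ V := hconjV a' ha' u hu
    have hw : c * u * c⁻¹ ∈ V := hconjV c hc u hu
    have hR : a * (c * u * c⁻¹) * a⁻¹ ∈ V := hconjV a ha _ hw
    have hS : a' * (c * u * c⁻¹) * a'⁻¹ ∈ V := hconjV a' ha' _ hw
    have ez : (⁅u, a⁆)⁻¹ * ⁅u, a'⁆ = (a * u * a⁻¹) * (a' * u * a'⁻¹)⁻¹ := by
      rw [commutatorElement_def, commutatorElement_def]; group
    rw [ez] at hzc
    have h1 : (a * u * a⁻¹) * (a' * u * a'⁻¹)⁻¹ =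
        (a * (c * u * c⁻¹) * a⁻¹) * (a' * (c * u * c⁻¹) * a'⁻¹)⁻¹ := by
      calc (a * u * a⁻¹) * (a' * u * a'⁻¹)⁻¹
          = (c * ((a * u * a⁻¹) * (a' * u * a'⁻¹)⁻¹)) * c⁻¹ := by rw [hzc]; group
        _ = (c * (a * u * a⁻¹) * c⁻¹) * (c * (a' * u * a'⁻¹) * c⁻¹)⁻¹ := by group
        _ = (a * (c * u * c⁻¹) * a⁻¹) * (a' * (c * u * c⁻¹) * a'⁻¹)⁻¹ := by
          rw [hswap c hc a ha u hu, hswap c hc a' ha' u hu]
    have h2 := comm4 _ hP _ hQ _ hR _ hS h1
    have h3 : a * ⁅u, c⁆ * a⁻¹ = a' * ⁅u, c⁆ * a'⁻¹ := by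
      rw [commutatorElement_def]
      calc a * (u * c * u⁻¹ * c⁻¹) * a⁻¹
          = (a * u * a⁻¹) * (a * (c * u * c⁻¹) * a⁻¹)⁻¹ := by group
        _ = (a' * u * a'⁻¹) * (a' * (c * u * c⁻¹) * a'⁻¹)⁻¹ := h2
        _ = a' * (u * c * u⁻¹ * c⁻¹) * a'⁻¹ := by group
    calc ⁅u, c⁆ * (a⁻¹ * a') = a⁻¹ * (a * ⁅u, c⁆ * a⁻¹) * a' := by group
      _ = a⁻¹ * (a' * ⁅u, c⁆ * a'⁻¹) * a' := by rw [h3]
      _ = a⁻¹ * a' * ⁅u, c⁆ := by group
  have hidx : (A ⊓ Subgroup.centralizer T).relIndex A ≤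
      (V ⊓ Subgroup.centralizer (A : Set G)).relIndex
        (Subgroup.closure T ⊔ (V ⊓ Subgroup.centralizer (A : Set G))) := by
    rw [Subgroup.relIndex, Subgroup.relIndex, Subgroup.index_eq_card, Subgroup.index_eq_card]
    have hf : ∀ q : A ⧸ (A ⊓ Subgroup.centralizer T).subgroupOf A,
        ⁅u, ((Quotient.out q : A) : G)⁆ ∈
          Subgroup.closure T ⊔ (V ⊓ Subgroup.centralizer (A : Set G)) :=
      fun q => hTW _ (Quotient.out q).2
    apply Nat.card_le_card_of_injective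
      (fun q : A ⧸ (A ⊓ Subgroup.centralizer T).subgroupOf A =>
        (QuotientGroup.mk (⟨⁅u, ((Quotient.out q : A) : G)⁆, hf q⟩ :
          (Subgroup.closure T ⊔ (V ⊓ Subgroup.centralizer (A : Set G)) : Subgroup G)) :
          (Subgroup.closure T ⊔ (V ⊓ Subgroup.centralizer (A : Set G)) : Subgroup G) ⧸
            (V ⊓ Subgroup.centralizer (A : Set G)).subgroupOf
              (Subgroup.closure T ⊔ (V ⊓ Subgroup.centralizer (A : Set G)))))
    intro q q' hqq
    have h1 := QuotientGroup.eq.mp hqq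
    rw [Subgroup.mem_subgroupOf] at h1
    have h2 := key _ (Quotient.out q).2 _ (Quotient.out q').2 h1
    have h3 : (QuotientGroup.mk (Quotient.out q) : A ⧸ (A ⊓ Subgroup.centralizer T).subgroupOf A) =
        QuotientGroup.mk (Quotient.out q') := by
      rw [QuotientGroup.eq, Subgroup.mem_subgroupOf]; exact h2
    rw [QuotientGroup.out_eq', QuotientGroup.out_eq'] at h3
    exact h3
  have hA1 : Nat.card (A ⊓ Subgroup.centralizer T : Subgroup G) *
      (A ⊓ Subgroup.centralizer T).relIndex A = Nat.card A := by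
    rw [← Subgroup.relIndex_bot_left, ← Subgroup.relIndex_bot_left,
      Subgroup.relIndex_mul_relIndex _ _ _ bot_le inf_le_left]
  have hW1 : Nat.card ↥(V ⊓ Subgroup.centralizer (A : Set G)) *
      (V ⊓ Subgroup.centralizer (A : Set G)).relIndex
        (Subgroup.closure T ⊔ (V ⊓ Subgroup.centralizer (A : Set G))) =
      Nat.card (Subgroup.closure T ⊔ (V ⊓ Subgroup.centralizer (A : Set G)) : Subgroup G) := by
    rw [← Subgroup.relIndex_bot_left, ← Subgroup.relIndex_bot_left,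
      Subgroup.relIndex_mul_relIndex _ _ _ bot_le le_sup_right]
  calc Nat.card A * Nat.card ↥(V ⊓ Subgroup.centralizer (A : Set G))
      = Nat.card (A ⊓ Subgroup.centralizer T : Subgroup G) *
        ((A ⊓ Subgroup.centralizer T).relIndex A *
          Nat.card ↥(V ⊓ Subgroup.centralizer (A : Set G))) := by rw [← hA1]; ring
    _ ≤ Nat.card (A ⊓ Subgroup.centralizer T : Subgroup G) *
        ((V ⊓ Subgroup.centralizer (A : Set G)).relIndex
          (Subgroup.closure T ⊔ (V ⊓ Subgroup.centralizer (A : Set G))) *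
          Nat.card ↥(V ⊓ Subgroup.centralizer (A : Set G))) := by gcongr
    _ = Nat.card (A ⊓ Subgroup.centralizer T : Subgroup G) *
        Nat.card (Subgroup.closure T ⊔ (V ⊓ Subgroup.centralizer (A : Set G)) : Subgroup G) := by
      rw [← hW1]; ring

/-- Single-element replacement: `C_A([u, A])` is best with fixed points `[u, A] C_V(A)`. -/
theorem offender_single_best [Finite G] (V A : Subgroup G)
    (hV : ∀ x ∈ V, ∀ y ∈ V, x * y = y * x)
    (hAV : A ≤ Subgroup.normalizer (V : Set G))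
    (hab : ⁅A, A⁆ ≤ Subgroup.centralizer (V : Set G))
    (hbest : ∀ B : Subgroup G, B ≤ A →
      Nat.card B * Nat.card ↥(V ⊓ Subgroup.centralizer (B : Set G)) ≤
      Nat.card A * Nat.card ↥(V ⊓ Subgroup.centralizer (A : Set G)))
    (u : G) (hu : u ∈ V) (T : Set G) (hT : T = {g | ∃ a ∈ A, ⁅u, a⁆ = g}) :
    Nat.card (A ⊓ Subgroup.centralizer T : Subgroup G) *
        Nat.card ↥(V ⊓ Subgroup.centralizer ((A ⊓ Subgroup.centralizer T : Subgroup G) : Set G)) =
      Nat.card A * Nat.card ↥(V ⊓ Subgroup.centralizer (A : Set G)) ∧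
    V ⊓ Subgroup.centralizer ((A ⊓ Subgroup.centralizer T : Subgroup G) : Set G) =
      Subgroup.closure T ⊔ (V ⊓ Subgroup.centralizer (A : Set G)) := by
  have h1 := offender_single_step V A hV hAV hab u hu T hT
  have h2 := hbest (A ⊓ Subgroup.centralizer T) inf_le_left
  have hTV : Subgroup.closure T ≤ V := by
    rw [Subgroup.closure_le, hT]
    rintro g ⟨a, ha, rfl⟩
    rw [commutatorElement_def]
    have h3 : a * u⁻¹ * a⁻¹ ∈ V :=
      (Subgroup.mem_normalizer_iff.mp (hAV ha) u⁻¹).mp (V.inv_mem hu)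
    have e : u * a * u⁻¹ * a⁻¹ = u * (a * u⁻¹ * a⁻¹) := by group
    rw [e]; exact V.mul_mem hu h3
  have hTC : Subgroup.closure T ≤
      Subgroup.centralizer ((A ⊓ Subgroup.centralizer T : Subgroup G) : Set G) := by
    rw [Subgroup.le_centralizer_iff, Subgroup.centralizer_closure]
    exact inf_le_right
  have hW : Subgroup.closure T ⊔ (V ⊓ Subgroup.centralizer (A : Set G)) ≤
      V ⊓ Subgroup.centralizer ((A ⊓ Subgroup.centralizer T : Subgroup G) : Set G) :=
    sup_le (le_inf hTV hTC)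
      (inf_le_inf_left _ (Subgroup.centralizer_le
        (by exact_mod_cast (inf_le_left : A ⊓ Subgroup.centralizer T ≤ A))))
  have hWc := Subgroup.card_le_of_le hW
  have hpos : 0 < Nat.card (A ⊓ Subgroup.centralizer T : Subgroup G) := Nat.card_pos
  have h4 : Nat.card (A ⊓ Subgroup.centralizer T : Subgroup G) *
      Nat.card (Subgroup.closure T ⊔ (V ⊓ Subgroup.centralizer (A : Set G)) : Subgroup G) ≤
      Nat.card (A ⊓ Subgroup.centralizer T : Subgroup G) *
      Nat.card ↥(V ⊓ Subgroup.centralizer ((A ⊓ Subgroup.centralizer T : Subgroup G) : Set G)) :=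
    Nat.mul_le_mul_left _ hWc
  have h5 : Nat.card (A ⊓ Subgroup.centralizer T : Subgroup G) *
      Nat.card ↥(V ⊓ Subgroup.centralizer ((A ⊓ Subgroup.centralizer T : Subgroup G) : Set G)) =
      Nat.card A * Nat.card ↥(V ⊓ Subgroup.centralizer (A : Set G)) :=
    le_antisymm h2 (h1.trans h4)
  refine ⟨h5, ?_⟩
  have h6 : Nat.card (A ⊓ Subgroup.centralizer T : Subgroup G) *
      Nat.card ↥(V ⊓ Subgroup.centralizer ((A ⊓ Subgroup.centralizer T : Subgroup G) : Set G)) ≤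
      Nat.card (A ⊓ Subgroup.centralizer T : Subgroup G) *
      Nat.card (Subgroup.closure T ⊔ (V ⊓ Subgroup.centralizer (A : Set G)) : Subgroup G) :=
    h5.le.trans h1
  exact (Subgroup.eq_of_le_of_card_ge hW (Nat.le_of_mul_le_mul_left h6 hpos)).symm

/-- The replacement theorem core: if `A` acts on the abelian group `V` with abelian image and
maximizes `|B| |C_V(B)|` over its subgroups, then so does `C_A([U, A])` for `U ≤ V`, and its
fixed points are `[U, A] C_V(A)`. -/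
theorem offender_core [Finite G] (V A : Subgroup G)
    (hV : ∀ x ∈ V, ∀ y ∈ V, x * y = y * x)
    (hAV : A ≤ Subgroup.normalizer (V : Set G))
    (hab : ⁅A, A⁆ ≤ Subgroup.centralizer (V : Set G))
    (hbest : ∀ B : Subgroup G, B ≤ A →
      Nat.card B * Nat.card ↥(V ⊓ Subgroup.centralizer (B : Set G)) ≤
      Nat.card A * Nat.card ↥(V ⊓ Subgroup.centralizer (A : Set G)))
    (U : Subgroup G) (hU : U ≤ V) :
    Nat.card (A ⊓ Subgroup.centralizer ((⁅U, A⁆ : Subgroup G) : Set G) : Subgroup G) *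
        Nat.card ↥(V ⊓ Subgroup.centralizer
          ((A ⊓ Subgroup.centralizer ((⁅U, A⁆ : Subgroup G) : Set G) : Subgroup G) : Set G)) =
      Nat.card A * Nat.card ↥(V ⊓ Subgroup.centralizer (A : Set G)) ∧
    V ⊓ Subgroup.centralizer
        ((A ⊓ Subgroup.centralizer ((⁅U, A⁆ : Subgroup G) : Set G) : Subgroup G) : Set G) =
      ⁅U, A⁆ ⊔ (V ⊓ Subgroup.centralizer (A : Set G)) := by
  classical
  have gen : ∀ F : Finset G, (∀ u ∈ F, u ∈ V) →
      Nat.card (A ⊓ Subgroup.centralizer {g | ∃ u ∈ F, ∃ a ∈ A, ⁅u, a⁆ = g} : Subgroup G) *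
        Nat.card ↥(V ⊓ Subgroup.centralizer
          ((A ⊓ Subgroup.centralizer {g | ∃ u ∈ F, ∃ a ∈ A, ⁅u, a⁆ = g} : Subgroup G) : Set G)) =
        Nat.card A * Nat.card ↥(V ⊓ Subgroup.centralizer (A : Set G)) ∧
      V ⊓ Subgroup.centralizer
          ((A ⊓ Subgroup.centralizer {g | ∃ u ∈ F, ∃ a ∈ A, ⁅u, a⁆ = g} : Subgroup G) : Set G) =
        Subgroup.closure {g | ∃ u ∈ F, ∃ a ∈ A, ⁅u, a⁆ = g} ⊔
          (V ⊓ Subgroup.centralizer (A : Set G)) := by
    intro F
    induction F using Finset.induction_on with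
    | empty =>
      intro _
      have h0 : {g : G | ∃ u ∈ (∅ : Finset G), ∃ a ∈ A, ⁅u, a⁆ = g} = ∅ := by
        ext g; simp
      rw [h0, Subgroup.closure_empty, bot_sup_eq]
      have h1 : A ⊓ Subgroup.centralizer (∅ : Set G) = A := by
        apply le_antisymm inf_le_left
        intro x hx
        exact Subgroup.mem_inf.mpr ⟨hx, by rw [Subgroup.mem_centralizer_iff]; intro h hh; exact absurd hh (Set.notMem_empty h)⟩
      rw [h1]
      exact ⟨rfl, rfl⟩
    | insert u F hu ih =>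
      intro hF
      have huV : u ∈ V := hF u (Finset.mem_insert_self u F)
      obtain ⟨ih1, ih2⟩ := ih (fun x hx => hF x (Finset.mem_insert_of_mem hx))
      have hins : {g | ∃ u' ∈ insert u F, ∃ a ∈ A, ⁅u', a⁆ = g} =
          {g | ∃ a ∈ A, ⁅u, a⁆ = g} ∪ {g | ∃ u ∈ F, ∃ a ∈ A, ⁅u, a⁆ = g} := by
        ext g
        simp only [Finset.mem_insert, Set.mem_ofPred_eq, Set.mem_union]
        constructor
        · rintro ⟨u', hu' | hu', a, ha, rfl⟩
          · left; exact ⟨a, ha, by rw [hu']⟩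
          · right; exact ⟨u', hu', a, ha, rfl⟩
        · rintro (⟨a, ha, rfl⟩ | ⟨u', hu', a, ha, rfl⟩)
          · exact ⟨u, Or.inl rfl, a, ha, rfl⟩
          · exact ⟨u', Or.inr hu', a, ha, rfl⟩
      have hcen : A ⊓ Subgroup.centralizer
          ({g | ∃ a ∈ A, ⁅u, a⁆ = g} ∪ {g | ∃ u ∈ F, ∃ a ∈ A, ⁅u, a⁆ = g}) =
          (A ⊓ Subgroup.centralizer {g | ∃ a ∈ A, ⁅u, a⁆ = g}) ⊓
          (A ⊓ Subgroup.centralizer {g | ∃ u ∈ F, ∃ a ∈ A, ⁅u, a⁆ = g}) := by
        rw [centralizer_union_eq]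
        exact inf_inf_distrib_left _ _ _
      obtain ⟨s1, s2⟩ := offender_single_best V A hV hAV hab hbest u huV _ rfl
      have h3 := best_inf V A hbest _ _ inf_le_left inf_le_left s1 ih1
      rw [hins, hcen]
      refine ⟨h3.1, ?_⟩
      rw [h3.2, s2, ih2, Subgroup.closure_union]
      exact (sup_sup_distrib_right _ _ _).symm
  have hfin := gen (Set.toFinite (U : Set G)).toFinset (fun u hu => hU (by simpa using hu))
  have hset : {g | ∃ u ∈ (Set.toFinite (U : Set G)).toFinset, ∃ a ∈ A, ⁅u, a⁆ = g} =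
      {g | ∃ g₁ ∈ U, ∃ g₂ ∈ A, ⁅g₁, g₂⁆ = g} := by
    ext g
    simp
  rw [hset] at hfin
  have hcl : Subgroup.closure {g | ∃ g₁ ∈ U, ∃ g₂ ∈ A, ⁅g₁, g₂⁆ = g} = ⁅U, A⁆ :=
    (Subgroup.commutator_def U A).symm
  have hcen : Subgroup.centralizer ((⁅U, A⁆ : Subgroup G) : Set G) =
      Subgroup.centralizer {g | ∃ g₁ ∈ U, ∃ g₂ ∈ A, ⁅g₁, g₂⁆ = g} := by
    rw [← hcl, Subgroup.centralizer_closure]
  rw [hcen, ← hcl]
  exact hfin

theorem eq_bot_of_le_commutator {N M : Subgroup G} (hnil : Group.IsNilpotent M)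
    (hNM : N ≤ M) (h : N ≤ ⁅N, M⁆) : N = ⊥ := by
  obtain ⟨n, hn⟩ := (Subgroup.isNilpotent_iff_lowerCentralSeries M).mp hnil
  have hle : ∀ k, N ≤ M.lowerCentralSeries k := by
    intro k
    induction k with
    | zero => simpa using hNM
    | succ k ih =>
      rw [Subgroup.lowerCentralSeries_succ]
      exact h.trans (Subgroup.commutator_mono ih le_rfl)
  have := hle n
  rw [hn] at this
  exact le_bot_iff.mp this

/-- If `A` acts on the `p`-group `V` with `A / C_A(V)` of exponent `p`, then no nontrivial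
subgroup `X` of `V` satisfies `X ≤ [X, A]`. -/
theorem eq_bot_of_le_commutator_of_pgroup_action [Finite G] {p : ℕ} [Fact p.Prime]
    (V A X : Subgroup G) (hVp : IsPGroup p V)
    (hAV : A ≤ Subgroup.normalizer (V : Set G))
    (hpow : ∀ a ∈ A, a ^ p ∈ Subgroup.centralizer (V : Set G))
    (hXV : X ≤ V) (hX : X ≤ ⁅X, A⁆) : X = ⊥ := by
  classical
  have hKn : ((Subgroup.centralizer (V : Set G)).subgroupOf A).Normal := by
    constructor
    intro k hk a
    rw [Subgroup.mem_subgroupOf] at hk ⊢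
    rw [Subgroup.mem_centralizer_iff] at hk ⊢
    intro v hv
    have hav : (a : G)⁻¹ * v * a ∈ V := by
      have := (Subgroup.mem_normalizer_iff.mp (hAV (A.inv_mem a.2)) v).mp hv
      simpa using this
    have h1 := hk _ hav
    simp only [Subgroup.coe_mul, Subgroup.coe_inv]
    calc v * ((a : G) * k * (a : G)⁻¹) = a * (((a : G)⁻¹ * v * a) * k) * (a : G)⁻¹ := by group
      _ = a * (k * ((a : G)⁻¹ * v * a)) * (a : G)⁻¹ := by rw [h1]
      _ = (a : G) * k * (a : G)⁻¹ * v := by group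
  have hquot : IsPGroup p (A ⧸ (Subgroup.centralizer (V : Set G)).subgroupOf A) := by
    intro q
    refine ⟨1, ?_⟩
    induction q using QuotientGroup.induction_on with | _ a => ?_
    rw [pow_one, ← QuotientGroup.mk_pow, QuotientGroup.eq_one_iff, Subgroup.mem_subgroupOf]
    simpa using hpow a a.2
  obtain ⟨n, hn⟩ := IsPGroup.iff_card.mp hquot
  have hKidx : ((Subgroup.centralizer (V : Set G)).subgroupOf A).index = p ^ n := by
    rw [Subgroup.index_eq_card]; exact hn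
  obtain ⟨Q⟩ := (inferInstance : Nonempty (Sylow p A))
  have hsup : (Q : Subgroup A) ⊔ (Subgroup.centralizer (V : Set G)).subgroupOf A = ⊤ := by
    rw [← Subgroup.index_eq_one]
    have h1 : ((Q : Subgroup A) ⊔ (Subgroup.centralizer (V : Set G)).subgroupOf A).index ∣
        (Q : Subgroup A).index := Subgroup.index_dvd_of_le le_sup_left
    have h2 : ((Q : Subgroup A) ⊔ (Subgroup.centralizer (V : Set G)).subgroupOf A).index ∣
        p ^ n := hKidx ▸ Subgroup.index_dvd_of_le le_sup_right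
    have h3 : Nat.Coprime (Q : Subgroup A).index (p ^ n) :=
      Nat.Coprime.pow_right _
        (Nat.Coprime.symm ((Nat.Prime.coprime_iff_not_dvd Fact.out).mpr Q.not_dvd_index))
    exact Nat.eq_one_of_dvd_coprimes h3 h1 h2
  have hQp : IsPGroup p ((Q : Subgroup A).map A.subtype) := Q.isPGroup'.map _
  have hQA : (Q : Subgroup A).map A.subtype ≤ A := Subgroup.map_subtype_le _
  have hP : IsPGroup p ((Q : Subgroup A).map A.subtype ⊔ V : Subgroup G) :=
    IsPGroup.to_sup_of_normal_right' hQp hVp (hQA.trans hAV)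
  have hnil : Group.IsNilpotent ((Q : Subgroup A).map A.subtype ⊔ V : Subgroup G) :=
    hP.isNilpotent
  apply eq_bot_of_le_commutator hnil (hXV.trans le_sup_right)
  refine hX.trans ?_
  rw [Subgroup.commutator_le]
  intro x hx a ha
  have hmem : (⟨a, ha⟩ : A) ∈
      (Q : Subgroup A) ⊔ (Subgroup.centralizer (V : Set G)).subgroupOf A := by
    rw [hsup]; exact Subgroup.mem_top _
  rw [Subgroup.mem_sup_of_normal_right] at hmem
  obtain ⟨q, hq, k, hk, hqk⟩ := hmem
  have hqk' : a = (q : G) * k := by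
    have := congrArg Subtype.val hqk
    simpa using this.symm
  rw [Subgroup.mem_subgroupOf, Subgroup.mem_centralizer_iff] at hk
  have hxV : x⁻¹ ∈ V := V.inv_mem (hXV hx)
  have h1 := hk _ hxV
  have e : ⁅x, a⁆ = ⁅x, (q : G)⁆ := by
    rw [hqk', commutatorElement_def, commutatorElement_def]
    calc x * ((q : G) * k) * x⁻¹ * ((q : G) * k)⁻¹
        = x * q * (k * x⁻¹) * (k : G)⁻¹ * (q : G)⁻¹ := by group
      _ = x * q * (x⁻¹ * k) * (k : G)⁻¹ * (q : G)⁻¹ := by rw [h1]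
      _ = x * q * x⁻¹ * (q : G)⁻¹ := by group
  rw [e]
  exact Subgroup.commutator_mem_commutator hx
    (Subgroup.mem_sup_left (Subgroup.mem_map_of_mem _ hq))

end Cfsg.Agent.Lib.Helper5
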