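import Mathlib
import Cfsg.Agent.Lib.Helper11.BG7c
import Cfsg.Agent.Lib.Helper1.Cores

/-!
Invariant `p'`-subgroups of `p`-constrained groups: the class-two variant (any prime) of the
statement that an abelian `p`-subgroup containing every `p`-element of its centralizer forces
its invariant `p'`-subgroups into `O_{p'}`.
-/

set_option autoImplicit false
set_option linter.style.haveILetI false

namespace Cfsg.Agent.Lib.Helper5.PConInv

open Cfsg.Agent.Lib.Helper11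

universe u

/-- Elementwise form of "nilpotency class at most two". -/
def Cl2 {Y : Type*} [Group Y] (S : Subgroup Y) : Prop :=
  ∀ s ∈ S, ∀ t ∈ S, ∀ u ∈ S, (s * t * s⁻¹ * t⁻¹) * u = u * (s * t * s⁻¹ * t⁻¹)

/-- `P` a normal self-centralizing `p`-subgroup, `S ≥ P, A` of class at most two, `A` containing
`C_P(A)`: an `A`-invariant `p'`-subgroup is trivial. -/
theorem quad_inv_eq_bot {Y : Type*} [Group Y] [Finite Y] (p : ℕ) [hp : Fact p.Prime]
    (P : Subgroup Y) (hPn : P.Normal) (hPp : IsPGroup p P)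
    (hCP : Subgroup.centralizer (P : Set Y) ≤ P)
    (S : Subgroup Y) (hPS : P ≤ S) (hS : Cl2 S)
    (A : Subgroup Y) (hAS : A ≤ S)
    (hΩ : ∀ x ∈ P, x ∈ Subgroup.centralizer (A : Set Y) → x ∈ A)
    (Q : Subgroup Y) (hQ : ¬ p ∣ Nat.card Q) (hAQ : A ≤ Subgroup.normalizer (Q : Set Y)) :
    Q = ⊥ := by
  have hcopQ : (Nat.card Q).Coprime p :=
    ((Nat.Prime.coprime_iff_not_dvd hp.out).mpr hQ).symm
  have hPQ : P ⊓ Q = ⊥ := by
    apply Disjoint.eq_bot
    apply Subgroup.disjoint_of_coprime_natCard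
    obtain ⟨n, hn⟩ := IsPGroup.iff_card.mp hPp
    rw [hn]
    exact (Nat.Coprime.pow_right n hcopQ).symm
  have hBQ : ∀ b ∈ A, b ∈ P → ∀ q ∈ Q, q * b = b * q := by
    intro b hbA hbP q hq
    have h1 : b * q * b⁻¹ * q⁻¹ ∈ P ⊓ Q := by
      rw [Subgroup.mem_inf]
      constructor
      · have : b * q * b⁻¹ * q⁻¹ = b * (q * b⁻¹ * q⁻¹) := by group
        rw [this]; exact P.mul_mem hbP (hPn.conj_mem _ (P.inv_mem hbP) q)
      · exact Q.mul_mem ((Subgroup.mem_normalizer_iff.mp (hAQ hbA) q).mp hq) (Q.inv_mem hq)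
    rw [hPQ, Subgroup.mem_bot] at h1
    have h2 : b * q * b⁻¹ * q⁻¹ * (q * b) = q * b := by rw [h1, one_mul]
    rw [← h2]; group
  -- an element of `Q` moving each `x ∈ P` by an element of `P` it commutes with is trivial
  have stepC : ∀ c ∈ Q, (∀ x ∈ P, ∃ r ∈ P, c * r = r * c ∧ c * x * c⁻¹ = x * r) → c = 1 := by
    intro c hc h
    have hcC : c ∈ Subgroup.centralizer (P : Set Y) := by
      rw [Subgroup.mem_centralizer_iff]
      intro x hx
      obtain ⟨r, hrP, hcr, hcx⟩ := h x hx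
      have hpow : ∀ n : ℕ, c ^ n * x * (c ^ n)⁻¹ = x * r ^ n := by
        intro n
        induction n with
        | zero => simp
        | succ n ih =>
          have hcrn : c * r ^ n = r ^ n * c := (Commute.pow_right (show Commute c r from hcr) n).eq
          calc c ^ (n + 1) * x * (c ^ (n + 1))⁻¹ = c * (c ^ n * x * (c ^ n)⁻¹) * c⁻¹ := by
                rw [pow_succ']; group
            _ = c * (x * r ^ n) * c⁻¹ := by rw [ih]
            _ = (c * x * c⁻¹) * (c * r ^ n * c⁻¹) := by group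
            _ = (x * r) * (r ^ n) := by rw [hcx, hcrn, mul_inv_cancel_right]
            _ = x * r ^ (n + 1) := by rw [pow_succ', mul_assoc]
      have h1 := hpow (orderOf c)
      rw [pow_orderOf_eq_one, one_mul, inv_one, mul_one] at h1
      have hr1 : r ^ orderOf c = 1 := by
        have h2 := congrArg (fun z => x⁻¹ * z) h1
        simpa using h2.symm
      obtain ⟨k, hk⟩ := hPp ⟨r, hrP⟩
      have hk' : r ^ p ^ k = 1 := by simpa using congrArg Subtype.val hk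
      have hco : (orderOf c).Coprime (p ^ k) := by
        have h2 : orderOf c ∣ Nat.card Q := by
          have h3 := orderOf_dvd_natCard (⟨c, hc⟩ : Q)
          rwa [← Subgroup.orderOf_coe] at h3
        exact Nat.Coprime.pow_right k (Nat.Coprime.coprime_dvd_left h2 hcopQ)
      have hr : r = 1 := by
        have h3 : orderOf r ∣ orderOf c := orderOf_dvd_of_pow_eq_one hr1
        have h4 : orderOf r ∣ p ^ k := orderOf_dvd_of_pow_eq_one hk'
        have h5 : orderOf r = 1 := Nat.eq_one_of_dvd_coprimes hco h3 h4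
        exact orderOf_eq_one_iff.mp h5
      rw [hr, mul_one] at hcx
      calc x * c = (c * x * c⁻¹) * c := by rw [hcx]
        _ = c * x := by group
    have h2 : c ∈ P ⊓ Q := ⟨hCP hcC, hc⟩
    rw [hPQ, Subgroup.mem_bot] at h2
    exact h2
  have fact1 : ∀ x ∈ P, ∀ a ∈ A, x⁻¹ * (a * x * a⁻¹) ∈ P ∧
      (∀ s ∈ S, (x⁻¹ * (a * x * a⁻¹)) * s = s * (x⁻¹ * (a * x * a⁻¹))) ∧
      ∀ y ∈ Q, y * (x⁻¹ * (a * x * a⁻¹)) = (x⁻¹ * (a * x * a⁻¹)) * y := by
    intro x hx a ha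
    have hrP : x⁻¹ * (a * x * a⁻¹) ∈ P := P.mul_mem (P.inv_mem hx) (hPn.conj_mem x hx a)
    have hrS : ∀ s ∈ S, (x⁻¹ * (a * x * a⁻¹)) * s = s * (x⁻¹ * (a * x * a⁻¹)) := by
      intro s hs
      have h1 := hS x⁻¹ (S.inv_mem (hPS hx)) a (hAS ha) s hs
      have e : x⁻¹ * a * x⁻¹⁻¹ * a⁻¹ = x⁻¹ * (a * x * a⁻¹) := by group
      rwa [e] at h1
    refine ⟨hrP, hrS, ?_⟩
    have hrA : x⁻¹ * (a * x * a⁻¹) ∈ A := by
      apply hΩ _ hrP
      rw [Subgroup.mem_centralizer_iff]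
      intro b hb
      exact (hrS b (hAS hb)).symm
    intro y hy
    exact hBQ _ hrA hrP y hy
  have stepA : ∀ y ∈ Q, ∀ a ∈ A, y⁻¹ * (a * y * a⁻¹) = 1 := by
    intro y hy a ha
    have hy' : a * y * a⁻¹ ∈ Q := (Subgroup.mem_normalizer_iff.mp (hAQ ha) y).mp hy
    have hcQ : y⁻¹ * (a * y * a⁻¹) ∈ Q := Q.mul_mem (Q.inv_mem hy) hy'
    apply stepC _ hcQ
    intro x hx
    have hw : y * x * y⁻¹ ∈ P := hPn.conj_mem x hx y
    obtain ⟨h1P, -, h1Q⟩ := fact1 (y * x * y⁻¹) hw a ha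
    obtain ⟨h2P, -, h2Q⟩ := fact1 x hx a ha
    obtain ⟨r₁, hr₁⟩ : ∃ r₁, r₁ = (y * x * y⁻¹)⁻¹ * (a * (y * x * y⁻¹) * a⁻¹) := ⟨_, rfl⟩
    obtain ⟨r₂, hr₂⟩ : ∃ r₂, r₂ = x⁻¹ * (a * x * a⁻¹) := ⟨_, rfl⟩
    rw [← hr₁] at h1P h1Q
    rw [← hr₂] at h2P h2Q
    refine ⟨r₁ * r₂⁻¹, P.mul_mem h1P (P.inv_mem h2P), ?_, ?_⟩
    · have e1 : Commute (y⁻¹ * (a * y * a⁻¹)) r₁ := h1Q _ hcQ
      have e2 : Commute (y⁻¹ * (a * y * a⁻¹)) r₂ := h2Q _ hcQ
      exact (e1.mul_right e2.inv_right).eq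
    · have e1 : a * x * a⁻¹ = x * r₂ := by rw [hr₂]; group
      have e2 : a * (y * x * y⁻¹) * a⁻¹ = y * x * y⁻¹ * r₁ := by rw [hr₁]; group
      have e3 : (a * y * a⁻¹) * (a * x * a⁻¹) * (a * y * a⁻¹)⁻¹ = a * (y * x * y⁻¹) * a⁻¹ := by
        group
      have c2 : Commute (a * y * a⁻¹) r₂ := h2Q _ hy'
      have c1 : Commute y r₁ := h1Q y hy
      have c3 : Commute y r₂ := h2Q y hy
      have e4 : (a * y * a⁻¹) * x * (a * y * a⁻¹)⁻¹ = y * x * y⁻¹ * r₁ * r₂⁻¹ := by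
        have h5 : (a * y * a⁻¹) * (x * r₂) * (a * y * a⁻¹)⁻¹ =
            ((a * y * a⁻¹) * x * (a * y * a⁻¹)⁻¹) * r₂ := by
          have h6 : (a * y * a⁻¹) * r₂ * (a * y * a⁻¹)⁻¹ = r₂ := c2.mul_inv_cancel
          calc (a * y * a⁻¹) * (x * r₂) * (a * y * a⁻¹)⁻¹
              = ((a * y * a⁻¹) * x * (a * y * a⁻¹)⁻¹) * ((a * y * a⁻¹) * r₂ * (a * y * a⁻¹)⁻¹) := by
                group
            _ = ((a * y * a⁻¹) * x * (a * y * a⁻¹)⁻¹) * r₂ := by rw [h6]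
        rw [← e1, e3, e2] at h5
        rw [h5]; group
      calc y⁻¹ * (a * y * a⁻¹) * x * (y⁻¹ * (a * y * a⁻¹))⁻¹
          = y⁻¹ * ((a * y * a⁻¹) * x * (a * y * a⁻¹)⁻¹) * y := by group
        _ = y⁻¹ * (y * x * y⁻¹ * r₁ * r₂⁻¹) * y := by rw [e4]
        _ = x * (y⁻¹ * (r₁ * r₂⁻¹) * y) := by group
        _ = x * (r₁ * r₂⁻¹) := by rw [(c1.mul_right c3.inv_right).inv_mul_cancel]
  rw [Subgroup.eq_bot_iff_forall]
  intro y hy
  apply stepC y hy
  intro x hx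
  have hrP : x⁻¹ * (y * x * y⁻¹) ∈ P := P.mul_mem (P.inv_mem hx) (hPn.conj_mem x hx y)
  refine ⟨x⁻¹ * (y * x * y⁻¹), hrP, ?_, by group⟩
  have hrA : x⁻¹ * (y * x * y⁻¹) ∈ A := by
    apply hΩ _ hrP
    rw [Subgroup.mem_centralizer_iff]
    intro a ha
    have hay : a * y * a⁻¹ = y := (inv_mul_eq_one.mp (stepA y hy a ha)).symm
    obtain ⟨h2P, h2S, h2Q⟩ := fact1 x hx a ha
    obtain ⟨r₂, hr₂⟩ : ∃ r₂, r₂ = x⁻¹ * (a * x * a⁻¹) := ⟨_, rfl⟩
    rw [← hr₂] at h2P h2S h2Q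
    have e1 : a * x * a⁻¹ = x * r₂ := by rw [hr₂]; group
    have c3 : Commute y r₂ := h2Q y hy
    have c4 : Commute r₂ (x⁻¹ * (y * x * y⁻¹)) := h2S _ (hPS hrP)
    have h7 : a * (x⁻¹ * (y * x * y⁻¹)) * a⁻¹ = x⁻¹ * (y * x * y⁻¹) := by
      calc a * (x⁻¹ * (y * x * y⁻¹)) * a⁻¹
          = (a * x * a⁻¹)⁻¹ * ((a * y * a⁻¹) * (a * x * a⁻¹) * (a * y * a⁻¹)⁻¹) := by group
        _ = (x * r₂)⁻¹ * (y * (x * r₂) * y⁻¹) := by rw [hay, e1]
        _ = r₂⁻¹ * (x⁻¹ * (y * x * y⁻¹)) * (y * r₂ * y⁻¹) := by group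
        _ = r₂⁻¹ * (x⁻¹ * (y * x * y⁻¹)) * r₂ := by rw [c3.mul_inv_cancel]
        _ = x⁻¹ * (y * x * y⁻¹) := c4.inv_mul_cancel
    calc a * (x⁻¹ * (y * x * y⁻¹)) = (a * (x⁻¹ * (y * x * y⁻¹)) * a⁻¹) * a := by group
      _ = x⁻¹ * (y * x * y⁻¹) * a := by rw [h7]
  exact hBQ _ hrA hrP y hy

/-- `p`-constrained `X` whose Sylow `p`-subgroups have class at most two: an abelian... (in fact any)
`p`-subgroup `A` containing every `p`-element of `C_X(A)` forces its invariant `p'`-subgroups into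
`O_{p'}(X)`. -/
theorem pcon_inv_le_of_cl2 {X : Type*} [Group X] [Finite X] (p : ℕ) [Fact p.Prime]
    (hX : Cfsg.IsPConstrained p X) (hcl : ∀ S : Sylow p X, Cl2 (S : Subgroup X))
    (A : Subgroup X) (hAp : IsPGroup p ↥A)
    (hΩ : ∀ x ∈ Subgroup.centralizer (A : Set X), IsPGroup p (Subgroup.zpowers x) → x ∈ A)
    (Q : Subgroup X) (hQ : ¬ p ∣ Nat.card ↥Q) (hAQ : A ≤ Subgroup.normalizer (Q : Set X)) :
    Q ≤ Cfsg.pPrimeCore p X := by
  have hpr : p.Prime := Fact.out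
  have hcon := (isPConstrained_iff p).mp hX
  have hPn : (Cfsg.pCore p (X ⧸ Cfsg.pPrimeCore p X)).Normal := pCore_normal' p
  have hPp : IsPGroup p (Cfsg.pCore p (X ⧸ Cfsg.pPrimeCore p X)) := pCore_isPGroup p
  obtain ⟨π, hπ⟩ : ∃ π : X →* X ⧸ Cfsg.pPrimeCore p X, π = QuotientGroup.mk' (Cfsg.pPrimeCore p X) :=
    ⟨_, rfl⟩
  have hπsurj : Function.Surjective π := by rw [hπ]; exact QuotientGroup.mk'_surjective _
  have hπker : ∀ x : X, π x = 1 ↔ x ∈ Cfsg.pPrimeCore p X := by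
    intro x; rw [hπ]; exact QuotientGroup.eq_one_iff x
  have hAbar : IsPGroup p (A.map π) := hAp.map π
  have hQbar : ¬ p ∣ Nat.card (Q.map π) := fun h => hQ (h.trans (Subgroup.card_map_dvd Q π))
  have hAQbar : A.map π ≤ Subgroup.normalizer ((Q.map π : Subgroup _) : Set _) :=
    (Subgroup.map_mono hAQ).trans (Subgroup.le_normalizer_map π)
  have hNcop : (Nat.card (Cfsg.pPrimeCore p X)).Coprime p := pPrimeCore_card_coprime p
  have hΩbar : ∀ x ∈ Cfsg.pCore p (X ⧸ Cfsg.pPrimeCore p X),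
      x ∈ Subgroup.centralizer ((A.map π : Subgroup _) : Set _) → x ∈ A.map π := by
    intro xbar hxP hxc
    obtain ⟨y, rfl⟩ := hπsurj xbar
    obtain ⟨k, hk⟩ := hPp ⟨π y, hxP⟩
    have hyp : (π y) ^ (p ^ k) = 1 := by simpa using congrArg Subtype.val hk
    have hstab : ∀ a ∈ A, ∀ g : X, π g = π y → π (a * g * a⁻¹) = π y := by
      intro a ha g hg
      have h1 := Subgroup.mem_centralizer_iff.mp hxc (π a) (Subgroup.mem_map_of_mem π ha)
      rw [map_mul, map_mul, map_inv, hg, h1, mul_inv_cancel_right]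
    letI : MulAction A {g : X // π g = π y} :=
      { smul := fun a g => ⟨a * g * a⁻¹, hstab a a.2 g g.2⟩
        one_smul := fun g => Subtype.ext (by
          show (1 : X) * g * (1 : X)⁻¹ = g
          group)
        mul_smul := fun a b g => Subtype.ext (by
          show (a : X) * b * g * ((a : X) * b)⁻¹ = a * (b * g * (b : X)⁻¹) * (a : X)⁻¹
          group) }
    have hScard : Nat.card {g : X // π g = π y} = Nat.card (Cfsg.pPrimeCore p X) := by
      apply Nat.card_congr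
      exact
        { toFun := fun g => ⟨y⁻¹ * g, by
            rw [← hπker, map_mul, map_inv, g.2, inv_mul_cancel]⟩
          invFun := fun n => ⟨y * n, by
            rw [map_mul, (hπker _).mpr n.2, mul_one]⟩
          left_inv := fun g => Subtype.ext (by simp)
          right_inv := fun n => Subtype.ext (by simp) }
    have hSp : ¬ p ∣ Nat.card {g : X // π g = π y} := by
      rw [hScard]
      exact (Nat.Prime.coprime_iff_not_dvd hpr).mp hNcop.symm
    obtain ⟨g₀, hg₀⟩ := hAp.nonempty_fixed_point_of_prime_not_dvd_card {g : X // π g = π y} hSp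
    have hg₀c : (g₀ : X) ∈ Subgroup.centralizer (A : Set X) := by
      rw [Subgroup.mem_centralizer_iff]
      intro a ha
      have h1 : (⟨a, ha⟩ : A) • g₀ = g₀ := hg₀ ⟨a, ha⟩
      have h2 : a * (g₀ : X) * a⁻¹ = g₀ := congrArg Subtype.val h1
      calc a * (g₀ : X) = (a * g₀ * a⁻¹) * a := by group
        _ = g₀ * a := by rw [h2]
    have hg₀π : π (g₀ : X) = π y := g₀.2
    have hgpN : (g₀ : X) ^ (p ^ k) ∈ Cfsg.pPrimeCore p X := by
      rw [← hπker, map_pow, hg₀π]; exact hyp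
    have hgpn : ((g₀ : X) ^ (p ^ k)) ^ Nat.card (Cfsg.pPrimeCore p X) = 1 := by
      have h3 := pow_card_eq_one' (G := Cfsg.pPrimeCore p X) (x := ⟨(g₀ : X) ^ (p ^ k), hgpN⟩)
      exact congrArg Subtype.val h3
    rcases Nat.eq_zero_or_pos k with hk0 | hkpos
    · rw [hk0, pow_zero, pow_one] at hyp
      rw [hyp]; exact Subgroup.one_mem _
    have hpk1 : 1 < p ^ k := Nat.one_lt_pow hkpos.ne' hpr.one_lt
    obtain ⟨m, -, hm⟩ := Nat.exists_mul_mod_eq_one_of_coprime (Nat.Coprime.pow_right k hNcop) hpk1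
    obtain ⟨n, hn⟩ : ∃ n, n = Nat.card (Cfsg.pPrimeCore p X) := ⟨_, rfl⟩
    rw [← hn] at hgpn hm
    have hxp : ((g₀ : X) ^ (n * m)) ^ (p ^ k) = 1 := by
      have he : n * m * p ^ k = p ^ k * n * m := by ring
      rw [← pow_mul, he, pow_mul, pow_mul, hgpn, one_pow]
    have hxπ : π ((g₀ : X) ^ (n * m)) = π y := by
      rw [map_pow, hg₀π]
      have h1 := Nat.div_add_mod (n * m) (p ^ k)
      rw [hm] at h1
      rw [← h1, pow_succ, pow_mul, hyp, one_pow, one_mul]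
    have hzp : IsPGroup p (Subgroup.zpowers ((g₀ : X) ^ (n * m))) := by
      obtain ⟨j, -, hj⟩ := (Nat.dvd_prime_pow hpr).mp (orderOf_dvd_of_pow_eq_one hxp)
      exact IsPGroup.of_card (n := j) (by rw [Nat.card_zpowers, hj])
    have hxA := hΩ _ (Subgroup.pow_mem _ hg₀c _) hzp
    rw [← hxπ]
    exact Subgroup.mem_map_of_mem π hxA
  obtain ⟨S₀, hS₀⟩ := hAbar.exists_le_sylow
  obtain ⟨S, hS⟩ := Sylow.mapSurjective_surjective hπsurj p S₀
  have hS₀cl : Cl2 (S₀ : Subgroup (X ⧸ Cfsg.pPrimeCore p X)) := by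
    rw [← hS, Sylow.coe_mapSurjective]
    intro s hs t ht u hu
    obtain ⟨s', hs', rfl⟩ := hs
    obtain ⟨t', ht', rfl⟩ := ht
    obtain ⟨u', hu', rfl⟩ := hu
    have h1 := hcl S s' hs' t' ht' u' hu'
    have h2 := congrArg π h1
    simpa only [map_mul, map_inv] using h2
  have hPS : Cfsg.pCore p (X ⧸ Cfsg.pPrimeCore p X) ≤ (S₀ : Subgroup _) :=
    Cfsg.Agent.Lib.Helper1.normal_pgroup_le_sylow hPn hPp S₀
  have hbot := quad_inv_eq_bot p (Cfsg.pCore p (X ⧸ Cfsg.pPrimeCore p X)) hPn hPp hcon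
    (S₀ : Subgroup _) hPS hS₀cl (A.map π) hS₀ hΩbar (Q.map π) hQbar hAQbar
  intro x hx
  rw [← hπker]
  have h3 : π x ∈ Q.map π := Subgroup.mem_map_of_mem π hx
  rw [hbot, Subgroup.mem_bot] at h3
  exact h3

section sub

variable {G : Type u} [Group G]

/-- Subgroup form of `pcon_inv_le_of_cl2`. -/
theorem inv_le_ppc_cl2 [Finite G] (p : ℕ) [Fact p.Prime] {X A Y : Subgroup G}
    (hX : Cfsg.IsPConstrained p ↥X) (hcl : ∀ S : Sylow p G, Cl2 (S : Subgroup G))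
    (hAX : A ≤ X) (hAp : IsPGroup p A)
    (hΩ : ∀ x ∈ Subgroup.centralizer (A : Set G), x ∈ X → IsPGroup p (Subgroup.zpowers x) → x ∈ A)
    (hYX : Y ≤ X) (hY : ¬ p ∣ Nat.card Y) (hAY : A ≤ Subgroup.normalizer (Y : Set G)) :
    Y ≤ ppc p X := by
  have hAp' : IsPGroup p ↥(A.subgroupOf X) :=
    hAp.comap_of_injective X.subtype X.subtype_injective
  have hΩ' : ∀ x ∈ Subgroup.centralizer ((A.subgroupOf X : Subgroup ↥X) : Set ↥X),
      IsPGroup p (Subgroup.zpowers x) → x ∈ A.subgroupOf X := by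
    intro x hx hxo
    rw [Subgroup.mem_subgroupOf]
    apply hΩ (x : G) _ x.2
    · have h1 : Subgroup.zpowers (x : G) = (Subgroup.zpowers x).map X.subtype := by
        rw [MonoidHom.map_zpowers]; rfl
      rw [h1]; exact hxo.map _
    · rw [Subgroup.mem_centralizer_iff]
      intro a ha
      have h2 := Subgroup.mem_centralizer_iff.mp hx ⟨a, hAX ha⟩ (Subgroup.mem_subgroupOf.mpr ha)
      exact congrArg Subtype.val h2
  have hcl' : ∀ S : Sylow p ↥X, Cl2 (S : Subgroup ↥X) := by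
    intro S
    obtain ⟨S', hS'⟩ := (S.2.map X.subtype).exists_le_sylow
    intro s hs t ht u hu
    have h := hcl S' (s : G) (hS' (Subgroup.mem_map_of_mem _ hs)) (t : G)
      (hS' (Subgroup.mem_map_of_mem _ ht)) (u : G) (hS' (Subgroup.mem_map_of_mem _ hu))
    exact Subtype.ext h
  have hQ' : ¬ p ∣ Nat.card ↥(Y.subgroupOf X) := by
    rw [Nat.card_congr (Subgroup.subgroupOfEquivOfLe hYX).toEquiv]
    exact hY
  have hAQ' : A.subgroupOf X ≤ Subgroup.normalizer ((Y.subgroupOf X : Subgroup ↥X) : Set ↥X) := by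
    intro a ha
    rw [Subgroup.mem_normalizer_iff]
    intro y
    rw [Subgroup.mem_subgroupOf, Subgroup.mem_subgroupOf]
    exact Subgroup.mem_normalizer_iff.mp (hAY (Subgroup.mem_subgroupOf.mp ha)) (y : G)
  have h := pcon_inv_le_of_cl2 p hX hcl' (A.subgroupOf X) hAp' hΩ' (Y.subgroupOf X) hQ' hAQ'
  intro y hy
  exact ⟨⟨y, hYX hy⟩, h (Subgroup.mem_subgroupOf.mpr hy), rfl⟩

/-- `inv_le_ppc` for a `p`-constrained (rather than solvable) subgroup, `p` odd. -/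
theorem inv_le_ppc_pcon [Finite G] (p : ℕ) [Fact p.Prime] (hp2 : p ≠ 2) {X A Y : Subgroup G}
    (hc : Cfsg.IsPConstrained p ↥X) (hAX : A ≤ X) (hAc : IsMulCommutative A) (hAp : IsPGroup p A)
    (hΩ : ∀ x ∈ Subgroup.centralizer (A : Set G), x ∈ X → orderOf x = p → x ∈ A)
    (hYX : Y ≤ X) (hY : ¬ p ∣ Nat.card Y) (hAY : A ≤ Subgroup.normalizer (Y : Set G)) :
    Y ≤ ppc p X := by
  have hA' : IsMulCommutative ↥(A.subgroupOf X) := by
    apply imc_of_sub_comm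
    intro a ha b hb
    exact Subtype.ext (sub_comm_of_imc hAc a ha b hb)
  have hAp' : IsPGroup p ↥(A.subgroupOf X) :=
    hAp.comap_of_injective X.subtype X.subtype_injective
  have hΩ' : ∀ x ∈ Subgroup.centralizer ((A.subgroupOf X : Subgroup ↥X) : Set ↥X),
      orderOf x = p → x ∈ A.subgroupOf X := by
    intro x hx hxo
    rw [Subgroup.mem_subgroupOf]
    apply hΩ (x : G) _ x.2 (by rw [Subgroup.orderOf_coe]; exact hxo)
    rw [Subgroup.mem_centralizer_iff]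
    intro a ha
    have h2 := Subgroup.mem_centralizer_iff.mp hx ⟨a, hAX ha⟩ (Subgroup.mem_subgroupOf.mpr ha)
    exact congrArg Subtype.val h2
  have hQ' : ¬ p ∣ Nat.card ↥(Y.subgroupOf X) := by
    rw [Nat.card_congr (Subgroup.subgroupOfEquivOfLe hYX).toEquiv]
    exact hY
  have hAQ' : A.subgroupOf X ≤ Subgroup.normalizer ((Y.subgroupOf X : Subgroup ↥X) : Set ↥X) := by
    intro a ha
    rw [Subgroup.mem_normalizer_iff]
    intro y
    rw [Subgroup.mem_subgroupOf, Subgroup.mem_subgroupOf]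
    exact Subgroup.mem_normalizer_iff.mp (hAY (Subgroup.mem_subgroupOf.mp ha)) (y : G)
  have h := Cfsg.Agent.S1302.result p hp2 hc (A.subgroupOf X) hA' hAp' hΩ' (Y.subgroupOf X) hQ' hAQ'
  intro y hy
  exact ⟨⟨y, hYX hy⟩, h (Subgroup.mem_subgroupOf.mpr hy), rfl⟩

end sub

end Cfsg.Agent.Lib.Helper5.PConInv
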