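import Mathlib

set_option autoImplicit false

namespace Cfsg.Agent.Lib.Helper5

/-- A nontrivial normal subgroup of a faithful primitive group is transitive. -/
theorem prim_normal_transitive {G Ω : Type*} [Group G] [MulAction G Ω] [FaithfulSMul G Ω]
    (hprim : MulAction.IsPreprimitive G Ω) (N : Subgroup G) [hN : N.Normal] (hne : N ≠ ⊥) :
    MulAction.IsPretransitive N Ω := by
  apply MulAction.IsQuasiPreprimitive.isPretransitive_of_normal
  intro hfix
  apply hne
  rw [Subgroup.eq_bot_iff_forall]
  intro x hx
  apply FaithfulSMul.eq_of_smul_eq_smul (α := Ω)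
  intro c
  have hc : c ∈ MulAction.fixedPoints N Ω := by rw [hfix]; trivial
  have := hc ⟨x, hx⟩
  rw [one_smul]
  exact this

/-- An element centralizing a transitive subgroup and fixing a point is trivial
(faithful action). -/
theorem centralizer_fix_eq_one {G Ω : Type*} [Group G] [MulAction G Ω] [FaithfulSMul G Ω]
    (M : Subgroup G) [MulAction.IsPretransitive M Ω] (c : G)
    (hc : c ∈ Subgroup.centralizer (M : Set G)) (ω : Ω) (hfix : c • ω = ω) : c = 1 := by
  apply FaithfulSMul.eq_of_smul_eq_smul (α := Ω)
  intro ω'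
  obtain ⟨m, rfl⟩ := MulAction.exists_smul_eq M ω ω'
  have h1 : (m : G) * c = c * (m : G) := Subgroup.mem_centralizer_iff.mp hc m m.2
  rw [one_smul, Subgroup.smul_def, ← mul_smul, ← h1, mul_smul, hfix]

end Cfsg.Agent.Lib.Helper5
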