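import Cfsg.Agent.Lib.Helper10.SigFam

/-!
A copy of the transitivity argument for signalizer functors whose values need not be solvable:
the family here drops the solvability requirement (the acting group is abelian, which is all the
coprime-action lemmas need).
-/

set_option autoImplicit false
set_option linter.style.haveILetI false
open Pointwise

namespace Cfsg.Agent.Lib.Helper5.SigFamNS

open Cfsg.Agent.Lib.Helper10

universe u

section sigfam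

variable {G : Type u} [Group G]

/-- The family of a signalizer functor without the solvability requirement. -/
def nfam (p : ℕ) (A : Subgroup G) (θ : G → Subgroup G) : Set (Subgroup G) :=
  {U | ¬ p ∣ Nat.card ↥U ∧ (∀ b ∈ A, ∀ u ∈ U, b * u * b⁻¹ ∈ U) ∧
    ∀ a ∈ A, a ≠ 1 → U ⊓ Subgroup.centralizer {a} ≤ θ a}

theorem isSolvable_of_elemAb {p : ℕ} {A : Subgroup G} (hA : Cfsg.IsElementaryAbelian p A) :
    Group.IsSolvable ↥A := by
  haveI := hA.1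
  apply Group.isSolvable_of_comm
  intro a b
  exact (hA.1.is_comm.comm a b)

/-- An `A`-invariant subgroup of a member of the family is a member. -/
theorem nfam_of_le [Finite G] {p : ℕ} {A : Subgroup G} {θ : G → Subgroup G} {U V : Subgroup G}
    (hU : U ∈ nfam p A θ) (hVU : V ≤ U)
    (hVA : ∀ b ∈ A, ∀ u ∈ V, b * u * b⁻¹ ∈ V) : V ∈ nfam p A θ := by
  obtain ⟨hp, hA, hθ⟩ := hU
  refine ⟨?_, hVA, ?_⟩
  · intro hdvd
    exact hp (hdvd.trans (Subgroup.card_dvd_of_le hVU))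
  · intro a ha ha1
    exact (inf_le_inf_right _ hVU).trans (hθ a ha ha1)

/-- The values of a solvable signalizer functor are members of its family. -/
theorem theta_mem_nfam {p : ℕ} {A : Subgroup G} {θ : G → Subgroup G}
    (hθ : Cfsg.IsSignalizerFunctor p A θ) {a : G} (ha : a ∈ A) (ha1 : a ≠ 1) :
    θ a ∈ nfam p A θ := by
  obtain ⟨h1, h2, h3, h4⟩ := hθ
  exact ⟨h2 a ha ha1, h3 a ha ha1, fun b hb hb1 => h4 a ha ha1 b hb hb1⟩

/-- Members of the family centralized by `A` lie in `θ(C_G(A))`. -/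
theorem nfam_inf_centralizer_le {p : ℕ} {A : Subgroup G} {θ : G → Subgroup G} {H : Subgroup G}
    (hH : H ∈ nfam p A θ) :
    H ⊓ Subgroup.centralizer (A : Set G) ≤ Cfsg.signalizerInf A θ := by
  intro x hx
  rw [mem_sigInf]
  intro a ha ha1
  apply hH.2.2 a ha ha1
  refine ⟨hx.1, ?_⟩
  show x ∈ Subgroup.centralizer ({a} : Set G)
  rw [Subgroup.mem_centralizer_iff]
  intro y hy
  rw [Set.mem_singleton_iff] at hy
  rw [hy]
  exact (Subgroup.mem_centralizer_iff.1 hx.2) a ha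

/-- The family is invariant under conjugation by `θ(C_G(A))`. -/
theorem nfam_conj [Finite G] {p : ℕ} {A : Subgroup G} {θ : G → Subgroup G}
    (hθ : Cfsg.IsSignalizerFunctor p A θ) {U : Subgroup G}
    (hU : U ∈ nfam p A θ) {c : G} (hc : c ∈ Cfsg.signalizerInf A θ) :
    U.map (MulAut.conj c).toMonoidHom ∈ nfam p A θ := by
  obtain ⟨hp, hA, hUθ⟩ := hU
  refine ⟨?_, ?_, ?_⟩
  · rw [Cfsg.Agent.Lib.Helper21.card_map_conj]; exact hp
  · intro b hb u hu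
    rw [Cfsg.Agent.Lib.Helper21.mem_map_conj] at hu ⊢
    have hbc := sigInf_comm hθ hc hb
    have : c⁻¹ * (b * u * b⁻¹) * c = b * (c⁻¹ * u * c) * b⁻¹ := by
      have h1 : c⁻¹ * b = b * c⁻¹ := by
        rw [inv_mul_eq_iff_eq_mul, ← mul_assoc, ← hbc, mul_inv_cancel_right]
      have h2 : b⁻¹ * c = c * b⁻¹ := by
        rw [inv_mul_eq_iff_eq_mul, ← mul_assoc, hbc, mul_inv_cancel_right]
      calc c⁻¹ * (b * u * b⁻¹) * c = (c⁻¹ * b) * u * (b⁻¹ * c) := by group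
        _ = (b * c⁻¹) * u * (c * b⁻¹) := by rw [h1, h2]
        _ = b * (c⁻¹ * u * c) * b⁻¹ := by group
    rw [this]
    exact hA b hb _ hu
  · intro a ha ha1 x hx
    obtain ⟨hxU, hxC⟩ := hx
    have hxU : x ∈ U.map (MulAut.conj c).toMonoidHom := hxU
    have hxC : x ∈ Subgroup.centralizer ({a} : Set G) := hxC
    rw [Cfsg.Agent.Lib.Helper21.mem_map_conj] at hxU
    have hca : c ∈ θ a := mem_sigInf.1 hc a ha ha1
    have hcC : c ∈ Subgroup.centralizer ({a} : Set G) := hθ.1 a ha ha1 hca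
    have h1 : c⁻¹ * x * c ∈ θ a := by
      apply hUθ a ha ha1
      refine ⟨hxU, ?_⟩
      exact Subgroup.mul_mem _ (Subgroup.mul_mem _ (Subgroup.inv_mem _ hcC) hxC) hcC
    have : x = c * (c⁻¹ * x * c) * c⁻¹ := by group
    rw [this]
    exact Subgroup.mul_mem _ (Subgroup.mul_mem _ hca h1) (Subgroup.inv_mem _ hca)

/-- `Q` is maximal among the `q`-subgroups in the family. -/
def NMaxQ (p : ℕ) (A : Subgroup G) (θ : G → Subgroup G) (q : ℕ) (Q : Subgroup G) : Prop :=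
  Q ∈ nfam p A θ ∧ IsPGroup q ↥Q ∧
    ∀ R ∈ nfam p A θ, IsPGroup q ↥R → Q ≤ R → R = Q

theorem exists_nmaxQ_ge [Finite G] {p : ℕ} {A : Subgroup G} {θ : G → Subgroup G} {q : ℕ}
    {R : Subgroup G} (hR : R ∈ nfam p A θ) (hRq : IsPGroup q ↥R) :
    ∃ Q, NMaxQ p A θ q Q ∧ R ≤ Q := by
  classical
  have hfin : Set.Finite {Q : Subgroup G | Q ∈ nfam p A θ ∧ IsPGroup q ↥Q ∧ R ≤ Q} :=
    Set.toFinite _
  have hne : ({Q : Subgroup G | Q ∈ nfam p A θ ∧ IsPGroup q ↥Q ∧ R ≤ Q}).Nonempty :=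
    ⟨R, hR, hRq, le_rfl⟩
  obtain ⟨Q, hQ, hmax⟩ := Set.Finite.exists_maximal hfin hne
  refine ⟨Q, ⟨hQ.1, hQ.2.1, ?_⟩, hQ.2.2⟩
  intro R' hR' hR'q hQR'
  have h1 : R' ∈ {Q : Subgroup G | Q ∈ nfam p A θ ∧ IsPGroup q ↥Q ∧ R ≤ Q} :=
    ⟨hR', hR'q, hQ.2.2.trans hQR'⟩
  exact le_antisymm (hmax h1 hQR') hQR'

theorem nmaxQ_conj [Finite G] {p : ℕ} {A : Subgroup G} {θ : G → Subgroup G} {q : ℕ}
    (hθ : Cfsg.IsSignalizerFunctor p A θ) {Q : Subgroup G} (hQ : NMaxQ p A θ q Q) {c : G}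
    (hc : c ∈ Cfsg.signalizerInf A θ) : NMaxQ p A θ q (Q.map (MulAut.conj c).toMonoidHom) := by
  refine ⟨nfam_conj hθ hQ.1 hc, hQ.2.1.map _, ?_⟩
  intro R hR hRq hle
  have hc' : c⁻¹ ∈ Cfsg.signalizerInf A θ := Subgroup.inv_mem _ hc
  have h1 : Q ≤ R.map (MulAut.conj c⁻¹).toMonoidHom := by
    intro x hx
    rw [Cfsg.Agent.Lib.Helper21.mem_map_conj]
    apply hle
    rw [Cfsg.Agent.Lib.Helper21.mem_map_conj]
    have : c⁻¹ * (c⁻¹⁻¹ * x * c⁻¹) * c = x := by group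
    rw [this]; exact hx
  have h2 := hQ.2.2 _ (nfam_conj hθ hR hc') (hRq.map _) h1
  rw [← h2, ← Cfsg.Agent.Lib.Helper21.map_conj_mul, mul_inv_cancel]
  ext x; simp

theorem nfam_le_normalizer {p : ℕ} {A : Subgroup G} {θ : G → Subgroup G} {U : Subgroup G}
    (hU : U ∈ nfam p A θ) : A ≤ Subgroup.normalizer (U : Set G) :=
  le_normalizer_of_conj_mem hU.2.1

theorem nfam_coprime [Finite G] {p : ℕ} [Fact p.Prime] {A : Subgroup G} {θ : G → Subgroup G}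
    (hA : Cfsg.IsElementaryAbelian p A) {U : Subgroup G} (hU : U ∈ nfam p A θ) :
    (Nat.card A).Coprime (Nat.card U) := by
  obtain ⟨k, hk⟩ := IsPGroup.iff_card.mp (isPGroup_of_elemAb hA)
  rw [hk]
  exact Nat.Coprime.pow_left k ((Nat.Prime.coprime_iff_not_dvd Fact.out).2 hU.1)

/-- If `X`, `Y` are members of the family and `Y` normalizes `X`, then `X ⊔ Y` is a member. -/
theorem nfam_sup [Finite G] (p : ℕ) [Fact p.Prime] (A : Subgroup G) (hA : Cfsg.IsElementaryAbelian p A)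
    (hA2 : p ^ 2 ≤ Nat.card ↥A) (θ : G → Subgroup G) (X Y : Subgroup G) (hX : X ∈ nfam p A θ)
    (hY : Y ∈ nfam p A θ) (hn : Y ≤ Subgroup.normalizer (X : Set G)) : X ⊔ Y ∈ nfam p A θ := by
  obtain ⟨hXp, hXA, hXθ⟩ := hX
  obtain ⟨hYp, hYA, hYθ⟩ := hY
  refine ⟨?_, ?_, ?_⟩
  · intro hdvd
    have h1 := Cfsg.Agent.Lib.Helper21.card_sup_dvd_of_le_normalizer hn
    rw [sup_comm] at h1
    have h2 := hdvd.trans h1
    rcases (Nat.Prime.dvd_mul (Fact.out)).1 h2 with h | h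
    · exact hYp h
    · exact hXp h
  · intro b hb u hu
    obtain ⟨x, hx, y, hy, rfl⟩ := Cfsg.Agent.Lib.Helper11.mem_sup_of_le_normalizer hn hu
    have : b * (x * y) * b⁻¹ = (b * x * b⁻¹) * (b * y * b⁻¹) := by group
    rw [this]
    exact Subgroup.mul_mem _ (Subgroup.mem_sup_left (hXA b hb x hx)) (Subgroup.mem_sup_right (hYA b hb y hy))
  · intro a ha ha1 g hg
    obtain ⟨hgXY, hgC⟩ := hg
    obtain ⟨x, hx, y, hy, rfl⟩ := Cfsg.Agent.Lib.Helper11.mem_sup_of_le_normalizer hn hgXY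
    have hzA : Subgroup.zpowers a ≤ A := (Subgroup.zpowers_le).2 ha
    have hzY : Subgroup.zpowers a ≤ Subgroup.normalizer (Y : Set G) :=
      le_normalizer_of_conj_mem (fun c hc u hu => hYA c (hzA hc) u hu)
    have hzX : Subgroup.zpowers a ≤ Subgroup.normalizer (X : Set G) :=
      le_normalizer_of_conj_mem (fun c hc u hu => hXA c (hzA hc) u hu)
    have hcard : Nat.card (Subgroup.zpowers a) = p := card_zpowers_eq_prime ha1 (hA.2 a ha)
    have hcop : (Nat.card (Subgroup.zpowers a)).Coprime (Nat.card Y) := by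
      rw [hcard]; exact (Nat.Prime.coprime_iff_not_dvd Fact.out).2 hYp
    have hNn : Y ≤ Subgroup.normalizer ((X ⊓ Y : Subgroup G) : Set G) :=
      le_normalizer_of_conj_mem (fun c hc u hu =>
        ⟨conj_mem_of_mem_normalizer (hn hc) hu.1, Y.mul_mem (Y.mul_mem hc hu.2) (Y.inv_mem hc)⟩)
    have hNA : Subgroup.zpowers a ≤ Subgroup.normalizer ((X ⊓ Y : Subgroup G) : Set G) :=
      le_normalizer_of_conj_mem (fun c hc u hu =>
        ⟨hXA c (hzA hc) u hu.1, hYA c (hzA hc) u hu.2⟩)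
    have hfix : ∀ c ∈ Subgroup.zpowers a, c * y * c⁻¹ * y⁻¹ ∈ X ⊓ Y := by
      intro c hc
      have hcg : c * (x * y) = (x * y) * c := mem_centralizer_zpowers hgC c hc
      refine ⟨?_, Y.mul_mem (hYA c (hzA hc) y hy) (Y.inv_mem hy)⟩
      have : c * y * c⁻¹ * y⁻¹ = (c * x * c⁻¹)⁻¹ * x := by
        have h1 : c * (x * y) * c⁻¹ = x * y := by rw [hcg, mul_inv_cancel_right]
        calc c * y * c⁻¹ * y⁻¹ = (c * x * c⁻¹)⁻¹ * (c * (x * y) * c⁻¹) * y⁻¹ := by group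
          _ = (c * x * c⁻¹)⁻¹ * (x * y) * y⁻¹ := by rw [h1]
          _ = (c * x * c⁻¹)⁻¹ * x := by group
      rw [this]
      exact X.mul_mem (X.inv_mem (hXA c (hzA hc) x hx)) hx
    obtain ⟨c', hc', hyc⟩ := Cfsg.Agent.Lib.Helper1.coprime_fixed_quotient (Subgroup.zpowers a) Y hzY hcop
      (Or.inl (isSolvable_zpowers a)) (X ⊓ Y) inf_le_right hNn hNA y hy hfix
    have hc'a : c' ∈ Subgroup.centralizer ({a} : Set G) := by
      rw [Subgroup.mem_centralizer_iff]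
      intro z hz
      rw [Set.mem_singleton_iff] at hz
      rw [hz]
      exact (Subgroup.mem_centralizer_iff.1 hc'.2) a (Subgroup.mem_zpowers a)
    have hc'θ : c' ∈ θ a := hYθ a ha ha1 ⟨hc'.1, hc'a⟩
    have hx' : x * y * c'⁻¹ ∈ X := by
      have h1 : y * (y⁻¹ * c')⁻¹ * y⁻¹ ∈ X := conj_mem_of_mem_normalizer (hn hy) (X.inv_mem hyc.1)
      have : x * y * c'⁻¹ = x * (y * (y⁻¹ * c')⁻¹ * y⁻¹) := by group
      rw [this]; exact X.mul_mem hx h1
    have hx'a : x * y * c'⁻¹ ∈ Subgroup.centralizer ({a} : Set G) :=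
      Subgroup.mul_mem _ hgC (Subgroup.inv_mem _ hc'a)
    have hx'θ := hXθ a ha ha1 ⟨hx', hx'a⟩
    have : x * y = (x * y * c'⁻¹) * c' := by group
    rw [this]; exact (θ a).mul_mem hx'θ hc'θ

/-- The Transitivity Theorem, inductive form. -/
theorem ntransitivity_aux [Finite G] (p : ℕ) [Fact p.Prime] (A : Subgroup G)
    (hA : Cfsg.IsElementaryAbelian p A) (hA3 : p ^ 3 ≤ Nat.card ↥A) (θ : G → Subgroup G)
    (hθ : Cfsg.IsSignalizerFunctor p A θ) (q : ℕ) [Fact q.Prime] (hqp : q ≠ p) :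
    ∀ n : ℕ, ∀ Q₁ Q₂ : Subgroup G, NMaxQ p A θ q Q₁ → NMaxQ p A θ q Q₂ →
      Nat.card G - Nat.card ↥(Q₁ ⊓ Q₂ : Subgroup G) = n →
      ∃ c ∈ Cfsg.signalizerInf A θ, Q₁.map (MulAut.conj c).toMonoidHom = Q₂ := by
  intro n
  induction n using Nat.strong_induction_on with
  | _ n ih =>
    intro Q₁ Q₂ h₁ h₂ hn
    by_cases hD₁ : Q₁ ⊓ Q₂ = Q₁
    · have hle : Q₁ ≤ Q₂ := inf_eq_left.1 hD₁
      have h := h₁.2.2 Q₂ h₂.1 h₂.2.1 hle
      refine ⟨1, Subgroup.one_mem _, ?_⟩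
      rw [h]; ext x; simp
    by_cases hD₂ : Q₁ ⊓ Q₂ = Q₂
    · have hle : Q₂ ≤ Q₁ := inf_eq_right.1 hD₂
      have h := h₂.2.2 Q₁ h₁.1 h₁.2.1 hle
      refine ⟨1, Subgroup.one_mem _, ?_⟩
      rw [h]; ext x; simp
    have hp : p.Prime := Fact.out
    have hA2 : p ^ 2 ≤ Nat.card ↥A := le_trans (Nat.pow_le_pow_right hp.pos (by norm_num)) hA3
    have hA₁ := nfam_le_normalizer h₁.1
    have hA₂ := nfam_le_normalizer h₂.1
    obtain ⟨a, ha, ha1, hT₁, hT₂⟩ := Cfsg.Agent.S1282.result p A hA hA3 q hqp Q₁ Q₂ h₁.2.1 h₂.2.1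
      hA₁ hA₂ hD₁ hD₂
    obtain ⟨D, hD⟩ : ∃ D : Subgroup G, D = Q₁ ⊓ Q₂ := ⟨_, rfl⟩
    rw [← hD] at hT₁ hT₂ hn
    have hDQ₁ : D ≤ Q₁ := hD ▸ inf_le_left
    have hDQ₂ : D ≤ Q₂ := hD ▸ inf_le_right
    have hAD : A ≤ Subgroup.normalizer (D : Set G) := by
      apply le_normalizer_of_conj_mem
      intro b hb u hu
      rw [hD] at hu ⊢
      exact ⟨conj_mem_of_mem_normalizer (hA₁ hb) hu.1, conj_mem_of_mem_normalizer (hA₂ hb) hu.2⟩
    have hDfam : D ∈ nfam p A θ :=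
      nfam_of_le h₁.1 hDQ₁ (fun b hb u hu => conj_mem_of_mem_normalizer (hAD hb) hu)
    have hAND : ∀ b ∈ A, ∀ u ∈ Subgroup.normalizer (D : Set G),
        b * u * b⁻¹ ∈ Subgroup.normalizer (D : Set G) := fun b hb u hu =>
      Subgroup.mul_mem _ (Subgroup.mul_mem _ (hAD hb) hu) (Subgroup.inv_mem _ (hAD hb))
    have hYfam : θ a ⊓ Subgroup.normalizer (D : Set G) ∈ nfam p A θ :=
      nfam_of_le (theta_mem_nfam hθ ha ha1) inf_le_left
        (fun b hb u hu => ⟨hθ.2.2.1 a ha ha1 b hb u hu.1, hAND b hb u hu.2⟩)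
    have hHfam : D ⊔ (θ a ⊓ Subgroup.normalizer (D : Set G)) ∈ nfam p A θ :=
      nfam_sup p A hA hA2 θ D _ hDfam hYfam inf_le_right
    obtain ⟨H, hH⟩ : ∃ H : Subgroup G, H = D ⊔ (θ a ⊓ Subgroup.normalizer (D : Set G)) := ⟨_, rfl⟩
    rw [← hH] at hHfam
    have hAH := nfam_le_normalizer hHfam
    have hcop := nfam_coprime hA hHfam
    have hAs : Group.IsSolvable ↥A := isSolvable_of_elemAb hA
    have hAC : ∀ b ∈ A, b ∈ Subgroup.centralizer ({a} : Set G) := by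
      intro b hb
      rw [Subgroup.mem_centralizer_iff]
      intro y hy
      rw [Set.mem_singleton_iff] at hy
      rw [hy]; exact elemAb_comm hA ha hb
    -- the key construction for each of the two subgroups
    have key : ∀ Q : Subgroup G, NMaxQ p A θ q Q → D ≤ Q →
        ¬ (Subgroup.normalizer (D : Set G) ⊓ Q ⊓ Subgroup.centralizer ({a} : Set G) ≤ D) →
        ∃ P : Sylow q ↥H, A ≤ Subgroup.normalizer (((P : Subgroup ↥H).map H.subtype : Subgroup G) : Set G) ∧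
          ∃ V : Subgroup G, D < V ∧ V ≤ Q ∧ V ≤ (P : Subgroup ↥H).map H.subtype := by
      intro Q hQ hDQ hT
      have hAQ := nfam_le_normalizer hQ.1
      obtain ⟨T, hTdef⟩ : ∃ T : Subgroup G,
          T = Subgroup.normalizer (D : Set G) ⊓ Q ⊓ Subgroup.centralizer ({a} : Set G) := ⟨_, rfl⟩
      rw [← hTdef] at hT
      have hTQ : T ≤ Q := hTdef ▸ (inf_le_left.trans inf_le_right)
      have hTH : T ≤ H := by
        intro x hx
        rw [hTdef] at hx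
        rw [hH]
        apply Subgroup.mem_sup_right
        exact ⟨hQ.1.2.2 a ha ha1 ⟨hx.1.2, hx.2⟩, hx.1.1⟩
      have hAT : A ≤ Subgroup.normalizer (T : Set G) := by
        apply le_normalizer_of_conj_mem
        intro b hb u hu
        rw [hTdef] at hu ⊢
        refine ⟨⟨hAND b hb u hu.1.1, conj_mem_of_mem_normalizer (hAQ hb) hu.1.2⟩, ?_⟩
        exact Subgroup.mul_mem _ (Subgroup.mul_mem _ (hAC b hb) hu.2) (Subgroup.inv_mem _ (hAC b hb))
      have hAV : A ≤ Subgroup.normalizer ((D ⊔ T : Subgroup G) : Set G) :=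
        (le_inf hAD hAT).trans (Cfsg.Agent.Lib.Helper18.normalizer_inf_le_normalizer_sup D T)
      have hVQ : D ⊔ T ≤ Q := sup_le hDQ hTQ
      have hVH : D ⊔ T ≤ H := sup_le (hH ▸ le_sup_left) hTH
      have hVq : IsPGroup q ↥(D ⊔ T : Subgroup G) := hQ.2.1.to_le hVQ
      obtain ⟨P, hVP, hAP⟩ := Cfsg.Agent.Lib.Helper1.invariant_pgroup_le_invariant_sylow A H hAH hcop
        (Or.inl hAs) q (Nat.card H - Nat.card ↥(D ⊔ T : Subgroup G)) (D ⊔ T) hVH hVq hAV le_rfl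
      refine ⟨P, hAP, D ⊔ T, ?_, hVQ, hVP⟩
      refine lt_of_le_of_ne le_sup_left ?_
      intro heq
      apply hT
      rw [heq]
      exact le_sup_right
    obtain ⟨P₁, hAP₁, V₁, hDV₁, hV₁Q, hV₁P⟩ := key Q₁ h₁ hDQ₁ hT₁
    obtain ⟨P₂, hAP₂, V₂, hDV₂, hV₂Q, hV₂P⟩ := key Q₂ h₂ hDQ₂ hT₂
    have hfamP : ∀ P : Sylow q ↥H,
        A ≤ Subgroup.normalizer (((P : Subgroup ↥H).map H.subtype : Subgroup G) : Set G) →
        (P : Subgroup ↥H).map H.subtype ∈ nfam p A θ := by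
      intro P hAP
      exact nfam_of_le hHfam (Subgroup.map_subtype_le _)
        (fun b hb u hu => conj_mem_of_mem_normalizer (hAP hb) hu)
    obtain ⟨Q₁', hQ₁', hR₁⟩ := exists_nmaxQ_ge (q := q) (hfamP P₁ hAP₁) (P₁.2.map _)
    obtain ⟨Q₂', hQ₂', hR₂⟩ := exists_nmaxQ_ge (q := q) (hfamP P₂ hAP₂) (P₂.2.map _)
    obtain ⟨c, hcA, hcP⟩ := Cfsg.Agent.Lib.Helper1.invariant_sylow_conj A H hAH hcop (Or.inl hAs) q
      P₁ P₂ hAP₁ hAP₂
    have hcS : (c : G) ∈ Cfsg.signalizerInf A θ := nfam_inf_centralizer_le hHfam ⟨c.2, hcA⟩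
    have hR12 : (P₂ : Subgroup ↥H).map H.subtype =
        ((P₁ : Subgroup ↥H).map H.subtype).map (MulAut.conj (c : G)).toMonoidHom := by
      rw [← hcP, Cfsg.Agent.Lib.Helper1.sylow_smul_map]
      rfl
    have hQ₁'' := nmaxQ_conj hθ hQ₁' hcS
    have hR₂'' : (P₂ : Subgroup ↥H).map H.subtype ≤ Q₁'.map (MulAut.conj (c : G)).toMonoidHom := by
      rw [hR12]; exact Subgroup.map_mono hR₁
    have hmeas : ∀ Q Q' : Subgroup G, D < Q ⊓ Q' →
        Nat.card G - Nat.card ↥(Q ⊓ Q' : Subgroup G) < n := by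
      intro Q Q' hlt
      have h1 := Cfsg.Agent.Lib.Helper1.card_lt_of_lt hlt
      have h2 := Subgroup.card_le_card_group (Q ⊓ Q' : Subgroup G)
      omega
    obtain ⟨c₁, hc₁, e₁⟩ := ih _ (hmeas Q₁ Q₁' (lt_of_lt_of_le hDV₁ (le_inf hV₁Q (hV₁P.trans hR₁))))
      Q₁ Q₁' h₁ hQ₁' rfl
    obtain ⟨c₂, hc₂, e₂⟩ := ih _ (hmeas _ Q₂' (lt_of_lt_of_le hDV₂ (le_inf (hV₂P.trans hR₂'')
      (hV₂P.trans hR₂)))) _ Q₂' hQ₁'' hQ₂' rfl
    obtain ⟨c₃, hc₃, e₃⟩ := ih _ (hmeas Q₂' Q₂ (lt_of_lt_of_le hDV₂ (le_inf (hV₂P.trans hR₂) hV₂Q)))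
      Q₂' Q₂ hQ₂' h₂ rfl
    refine ⟨c₃ * (c₂ * ((c : G) * c₁)), Subgroup.mul_mem _ hc₃ (Subgroup.mul_mem _ hc₂
      (Subgroup.mul_mem _ hcS hc₁)), ?_⟩
    rw [Cfsg.Agent.Lib.Helper21.map_conj_mul, Cfsg.Agent.Lib.Helper21.map_conj_mul,
      Cfsg.Agent.Lib.Helper21.map_conj_mul, e₁, e₂, e₃]

/-- The Transitivity Theorem. -/
theorem ntransitivity [Finite G] (p : ℕ) [Fact p.Prime] (A : Subgroup G)
    (hA : Cfsg.IsElementaryAbelian p A) (hA3 : p ^ 3 ≤ Nat.card ↥A) (θ : G → Subgroup G)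
    (hθ : Cfsg.IsSignalizerFunctor p A θ) (q : ℕ) [Fact q.Prime] {Q₁ Q₂ : Subgroup G}
    (h₁ : NMaxQ p A θ q Q₁) (h₂ : NMaxQ p A θ q Q₂) :
    ∃ c ∈ Cfsg.signalizerInf A θ, Q₁.map (MulAut.conj c).toMonoidHom = Q₂ := by
  by_cases hqp : q = p
  · subst hqp
    have e₁ := eq_bot_of_isPGroup_of_not_dvd h₁.2.1 h₁.1.1
    have e₂ := eq_bot_of_isPGroup_of_not_dvd h₂.2.1 h₂.1.1
    refine ⟨1, Subgroup.one_mem _, ?_⟩
    rw [e₁, e₂, Subgroup.map_bot]
  · exact ntransitivity_aux p A hA hA3 θ hθ q hqp _ Q₁ Q₂ h₁ h₂ rfl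


end sigfam

end Cfsg.Agent.Lib.Helper5.SigFamNS
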